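import Cfsg.Agent.H15.M.M11
import Cfsg.Agent.H15.M.M22
import Cfsg.Agent.H15.J2
import Cfsg.Agent.H15.Ru
import Cfsg.Agent.H15.Conway2
import Cfsg.Agent.H16.L.J3
import Cfsg.Agent.H16.L.Tits
import Cfsg.Agent.H16.P.SuzL
import Cfsg.Agent.H16.P.HeL
import Cfsg.Agent.H16.P.ONL
import Cfsg.Agent.H16.D.J4s
import Cfsg.Agent.H16.D.THs
import Cfsg.Agent.H16.D.HNs
import Cfsg.Agent.H16.D.LY
import Cfsg.Prelude.Def_Classification2

/-! Elementary abelian subgroups of order nine in the sporadic groups other than `J₁`, the Tits group and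
the groups `²F₄(q)`. -/

set_option autoImplicit false
set_option maxRecDepth 100000

namespace H16.Nine
open Cfsg Cfsg.Spor Subgroup

/-- `G` has an elementary abelian subgroup of order nine -/
def E9 (G : Type*) [Group G] : Prop :=
  ∃ a b : G, a ^ 3 = 1 ∧ b ^ 3 = 1 ∧ Commute a b ∧ a ≠ 1 ∧ b ∉ zpowers a

section
variable {G H : Type*} [Group G] [Group H]

theorem E9.of_ker (h : E9 G) (f : G →* H) (hf : ∀ x, f x = 1 → x ^ 3 = 1 → x = 1) : E9 H := by
  obtain ⟨a, b, h1, h2, h3, h4, h5⟩ := h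
  refine ⟨f a, f b, by rw [← map_pow, h1, map_one], by rw [← map_pow, h2, map_one], h3.map f,
    fun e => h4 (hf a e h1), fun ⟨k, e⟩ => h5 ⟨k, ?_⟩⟩
  have c : Commute (a ^ k) b⁻¹ := (h3.zpow_left k).inv_right
  refine mul_inv_eq_one.1 (hf _ ?_ ?_)
  · rw [map_mul, map_inv, map_zpow, mul_inv_eq_one]; exact e
  · rw [c.mul_pow, inv_pow, h2, ← zpow_natCast, ← zpow_mul, mul_comm, zpow_mul, zpow_natCast, h1]; simp

theorem E9.map (h : E9 G) (f : G →* H) (hf : Function.Injective f) : E9 H :=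
  h.of_ker f fun _ e _ => hf (e.trans (map_one f).symm)

theorem E9.congr (h : E9 G) (e : G ≃* H) : E9 H := h.map e.toMonoidHom e.injective
theorem E9.sub {K : Subgroup G} (h : E9 K) : E9 G := h.map K.subtype K.subtype_injective
theorem E9.mono {K L : Subgroup G} (h : E9 K) (l : K ≤ L) : E9 L := h.map (inclusion l) (inclusion_injective l)

theorem E9.mk' {K : Subgroup G} {a b : G} (ha : a ∈ K) (hb : b ∈ K) (h1 : a ^ 3 = 1) (h2 : b ^ 3 = 1)
    (h3 : a * b = b * a) (h4 : a ≠ 1) (h5 : b ∉ zpowers a) : E9 K :=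
  ⟨⟨a, ha⟩, ⟨b, hb⟩, Subtype.ext h1, Subtype.ext h2, Subtype.ext h3, fun e => h4 (congrArg Subtype.val e),
    fun ⟨k, e⟩ => h5 ⟨k, congrArg Subtype.val e⟩⟩

theorem not_mem {a b : G} (h1 : a ^ 3 = 1) (n0 : b ≠ 1) (n1 : a * b ≠ 1) (n2 : a * a * b ≠ 1) : b ∉ zpowers a := by
  rintro ⟨k, rfl⟩
  have e : a ^ k = a ^ (k % 3) := by
    conv_lhs => rw [← Int.mul_ediv_add_emod k 3, zpow_add, zpow_mul, zpow_ofNat, h1, one_zpow, one_mul]
  have : k % 3 = 0 ∨ k % 3 = 1 ∨ k % 3 = 2 := by omega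
  rcases this with h | h | h <;> simp only [e, h] at n0 n1 n2
  · exact n0 (zpow_zero a)
  · exact n2 (by rw [← h1, zpow_one, pow_three'])
  · exact n1 (by rw [← h1, zpow_two, pow_three])
end

section
variable {G Ω : Type*} [Group G] [MulAction G Ω] {g : ℕ → G} {pt : ℕ → Ω} {P : ℕ → ℕ → ℕ} {N K : ℕ} {B : List ℕ}

/-- the word moves a point of `B` -/
def mv (P : ℕ → ℕ → ℕ) (K : ℕ) (B W : List ℕ) : Prop := ltAll K W = 0 ∧ ∃ i ∈ B, apW P W i ≠ i
noncomputable instance {W : List ℕ} : Decidable (mv P K B W) := by unfold mv; infer_instance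

/-- the check of two words -/
def Chk (P : ℕ → ℕ → ℕ) (N K : ℕ) (B U V : List ℕ) : Prop :=
  ltAll N B = 0 ∧ fixL P K B (U ++ U ++ U) = 0 ∧ fixL P K B (V ++ V ++ V) = 0 ∧ eqL P K B (V ++ U) (U ++ V) = 0 ∧
    mv P K B U ∧ mv P K B V ∧ mv P K B (V ++ U) ∧ mv P K B (V ++ (U ++ U))
noncomputable instance {U V : List ℕ} : Decidable (Chk P N K B U V) := by unfold Chk; infer_instance

theorem of_act (h : Act g pt P N K) (hp : PtInj pt N) (hb : IsBase (gen g K) pt B) (U V : List ℕ)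
    (c : Chk P N K B U V) : E9 (gen g K) := by
  obtain ⟨c0, c1, c2, c3, c4, c5, c6, c7⟩ := c
  have m : ∀ {W}, mv P K B W → evA g W ≠ 1 := fun ⟨l, i, hi, e⟩ => h.ne_one hp ⟨l, ltAll_zero c0 i hi, e⟩
  have a := fixL_eq_one h c0 hb c1
  have b := fixL_eq_one h c0 hb c2
  have d := eqL_sound h c0 hb c3
  have n6 := m c6
  have n7 := m c7
  simp only [evA_append] at a b d n6 n7
  exact .mk' (evA_mem_gen g (ltAll_zero c4.1)) (evA_mem_gen g (ltAll_zero c5.1)) (by rw [pow_three, a])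
    (by rw [pow_three, b]) d (m c4) (not_mem (by rw [pow_three, a]) (m c5) n6 n7)

theorem of_md {c : ℕ} (M : H0.TR.Md g pt P N K B c) (U V : List ℕ) (h : Chk P N K B U V) : E9 G :=
  (of_act M.act M.inj (M.base.mono le_top) U V h).sub
end

/-! ### groups with a permutation model -/

theorem m11 : E9 M11 := H15.MM11.gen_eq ▸ of_act H15.MM11.act H15.MM11.inj H15.MM11.isBase [0, 0, 4] [0, 4, 0] (by decide +kernel)
theorem m22 : E9 M22 := H15.MM22.gen_eq ▸ of_act H15.MM22.act H15.MM22.inj H15.MM22.isBase [4] [7, 8] (by decide +kernel)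
theorem m12 : E9 M12 := m11.mono inf_le_left
theorem m23 : E9 M23 := m22.mono inf_le_left
theorem m24 : E9 M24 := m12.mono inf_le_left
theorem j2 : E9 Spor.J2 := (of_act H16.J2.act (ptF_inj _) H16.J2.isBase [2, 3] (List.replicate 4 [2, 3, 4]).flatten
  (by decide +kernel)).congr H15.J2L.equiv.symm
theorem j3 {F : Type*} [Field F] [Fintype F] (hF : Fintype.card F = 4) {ω : F} (hω : ω ^ 2 + ω + 1 = 0) :
    E9 (Spor.J3 F ω) := (of_act H16.J3.act (ptF_inj _) H16.J3.isBase (List.replicate 5 [0, 2, 1, 3, 1]).flatten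
      (List.replicate 5 [1, 2, 1, 3, 0]).flatten (by decide +kernel)).congr (LJ3.equiv hF hω)
theorem mcl : E9 McL := (of_act H15.McL.act H15.McL.inj H15.McL.isBase [1, 2] [1, 4, 1, 4] (by decide +kernel)).congr H15.mclGen
theorem hs : E9 HS := (of_act H15.HS.act H15.HS.inj H15.HS.isBase [0, 2, 5, 0] [2, 0, 5, 2] (by decide +kernel)).congr H15.hsGen
theorem co3 : E9 Co3 := mcl.mono inf_le_left
theorem co2 : E9 Co2 := mcl.mono (inf_le_inf_right _ inf_le_left)
theorem co1 : E9 Co1 := (co3.mono inf_le_left).of_ker (QuotientGroup.mk' _) fun x h h3 => by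
  have h2 := pow_card_eq_one' (x := (⟨x, (QuotientGroup.eq_one_iff x).1 h⟩ : center Co0))
  rw [H15.card_center] at h2
  have h2 : x ^ 2 = 1 := congrArg Subtype.val h2
  rwa [pow_succ, h2, one_mul] at h3
theorem suz : E9 Spor.Suz := (of_act PSuz.act (ptF_inj _) PSuz.isBase [1, 5] [3, 4] (by decide +kernel)).congr PSuz.equiv.symm
theorem he : E9 He := (of_act PHe.act (ptF_inj _) PHe.isBase [0, 3] (List.replicate 7 [0, 3, 4, 6]).flatten
  (by decide +kernel)).congr PHe.equiv.symm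
theorem ru : E9 Ru := (of_act H15.Ru.act (ptF_inj _) H15.Ru.isBase [4, 1, 5, 4, 1, 5]
  (List.replicate 4 [0, 2, 5, 0, 5, 0]).flatten (by decide +kernel)).congr H15.RuL.equiv.symm
theorem on : E9 ON := (of_act PON.act (fun _ _ _ _ e => e) PON.isBase [2, 4] [5, 3] (by decide +kernel)).congr PON.equiv.symm
theorem g25 : E9 (gen LYn.T.π 8) := of_act LYn.act (fun _ _ _ _ e => e) LYn.mod'.2 (List.replicate 8 [2, 4, 7]).flatten
  (List.replicate 7 [0, 4, 6, 4]).flatten (by decide +kernel)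
theorem ly : E9 Ly :=
  have a : E9 (gen DLY.g 8) := DLY.isoN.elim fun e => g25.congr e.symm
  have b : E9 (gen DLY.g 10) := a.mono (gen_mono _ (by norm_num))
  b.congr DLY.equiv.symm
theorem j4 : E9 J4 := have ⟨_, M⟩ := J4s.md; (of_md M [4] [8, 9] (by decide +kernel)).sub
theorem th : E9 Th := have ⟨_, M⟩ := THs.md; (of_md M [5] [0, 1] (by decide +kernel)).sub
theorem hn : E9 HN := have ⟨_, M⟩ := HNs.md; (of_md M [2, 2] (List.replicate 4 [2, 2, 4]).flatten (by decide +kernel)).sub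
theorem tits : E9 Lie.TitsGroup := (of_act H15.Tits.act (ptF_inj _) H15.Tits.isBase (List.replicate 4 [0, 2, 4, 5]).flatten
  (List.replicate 4 [2, 5, 4, 0, 4]).flatten (by decide +kernel)).congr LTits.equiv

open Lie in
theorem x_map (D : ChevalleyDatum) {F K : Type*} [Field F] [Field K] (f : F →+* K) (r : ℕ) (t : F) :
    (D.x F r t).map f = D.x K r (f t) := by
  unfold ChevalleyDatum.x
  split_ifs with h
  · ext (i | i) (j | j) <;> simp only [ChevalleyDatum.xMat, Matrix.map_apply, Matrix.of_apply] <;>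
      split_ifs <;> simp [map_list_sum, Function.comp_def]
  · simp

open Lie in
theorem twF4 (K : Type*) [Field K] [CharP K 2] {e : ℕ} (he : e ≠ 0) : E9 (twistedF4 K e) := by
  let f : ZMod 2 →+* K := ZMod.castHom (dvd_refl 2) K
  let φ : GL chevF4.Idx (ZMod 2) →* GL chevF4.Idx K := Matrix.GeneralLinearGroup.map f
  have hφ : Function.Injective φ := fun a b h => Units.ext (Matrix.ext fun i j =>
    f.injective (congrArg (fun c : GL chevF4.Idx K => c.val i j) h))
  have w : ∀ w : List (ℕ × ZMod 2), (chevF4.wordMat _ w).map f = chevF4.wordMat K (w.map fun p => (p.1, f p.2)) := by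
    intro w
    induction w with
    | nil => simp [ChevalleyDatum.wordMat]
    | cons p w ih =>
      simp only [ChevalleyDatum.wordMat, List.map_cons, List.prod_cons] at ih ⊢
      rw [Matrix.map_mul, ih, x_map]
  have p : ∀ (t : ZMod 2) (n m : ℕ), n ≠ 0 → m ≠ 0 → f (t ^ n) = f t ^ m := fun t n m hn hm => by
    have : t = 0 ∨ t = 1 := by revert t; decide
    rcases this with rfl | rfl <;> simp [hn, hm]
  have le : (twistedF4 (ZMod 2) 1).map φ ≤ twistedF4 K e := by
    rw [map_le_iff_le_comap]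
    refine (closure_le _).2 fun a ⟨v, hv, ha⟩ => subset_closure ⟨_, ?_, (congrArg (·.map f) ha).trans (w v)⟩
    rcases hv with ⟨t, rfl | rfl⟩ | ⟨t, u, rfl | rfl⟩
    · exact .inl ⟨f t, .inl (by simp only [f4PairWord, List.map, p t 1 e one_ne_zero he])⟩
    · exact .inl ⟨f t, .inr (by simp only [f4PairWord, List.map, p t 1 e one_ne_zero he])⟩
    · exact .inr ⟨f t, f u, .inl (by simp only [b2ClassWord, List.map, map_add, p t 1 e one_ne_zero he,
        p t (1 + 1) (e + 1) (by norm_num) (by omega), p u (2 * 1) (2 * e) (by norm_num) (by omega)])⟩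
    · exact .inr ⟨f t, f u, .inr (by simp only [b2ClassWord, List.map, map_add, p t 1 e one_ne_zero he,
        p t (1 + 1) (e + 1) (by norm_num) (by omega), p u (2 * 1) (2 * e) (by norm_num) (by omega)])⟩
  exact (tits.sub.congr ((twistedF4 (ZMod 2) 1).equivMapOfInjective φ hφ)).mono le

/-! ### groups given by a simply laced Coxeter graph -/

section
variable {α : Type} [DecidableEq α] {ed : List (α × ℕ × α)} {ex : List (FreeGroup α)}

theorem cox_rel {x y : α} (hx : x ∈ coxNodes ed) (hy : y ∈ coxNodes ed) :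
    ((PresentedGroup.of x * PresentedGroup.of y : CoxPresented α ed ex)) ^ coxLabel ed x y = 1 := by
  have := PresentedGroup.one_of_mem (rels := coxRelators ed ∪ {r | r ∈ ex}) (.inl ⟨x, hx, y, hy, rfl⟩)
  rwa [map_pow, map_mul] at this

theorem cox_sq {x : α} (hx : x ∈ coxNodes ed) : (PresentedGroup.of x * PresentedGroup.of x : CoxPresented α ed ex) = 1 := by
  have := cox_rel (ex := ex) hx hx
  rwa [coxLabel, if_pos rfl, pow_one] at this

theorem cox_comm {x y : α} (hx : x ∈ coxNodes ed) (hy : y ∈ coxNodes ed) (h : coxLabel ed x y = 2) :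
    Commute (PresentedGroup.of x : CoxPresented α ed ex) (PresentedGroup.of y) := by
  have := cox_rel (ex := ex) hx hy
  rw [h, pow_two] at this
  rw [Commute, SemiconjBy, eq_inv_of_mul_eq_one_left this, mul_inv_rev, ← eq_inv_of_mul_eq_one_left (cox_sq hx),
    ← eq_inv_of_mul_eq_one_left (cox_sq hy)]

/-- each further node is joined to one known node and not joined to another -/
def coll (ed : List (α × ℕ × α)) : List α → List α → Bool
  | _, [] => true
  | S, k :: r => decide (k ∈ coxNodes ed) && S.any (coxLabel ed · k = 2) && S.any (coxLabel ed · k = 3) && coll ed (k :: S) r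

theorem coll_eq {v : CoxPresented α ed ex} (hv : v * v = 1) {r S : List α} (h : coll ed S r = true)
    (hS : ∀ x ∈ S, x ∈ coxNodes ed ∧ PresentedGroup.of x = v) : ∀ x ∈ r, PresentedGroup.of x = v := by
  induction r generalizing S with
  | nil => simp
  | cons k r ih =>
    simp only [coll, Bool.and_eq_true, decide_eq_true_eq, List.any_eq_true] at h
    obtain ⟨⟨⟨hk, p, hp, h2⟩, q, hq, h3⟩, h⟩ := h
    have a := cox_rel (ex := ex) (hS p hp).1 hk
    have b := cox_rel (ex := ex) (hS q hq).1 hk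
    rw [h2, (hS p hp).2] at a
    rw [h3, (hS q hq).2, pow_succ, a, one_mul] at b
    have e : PresentedGroup.of k = v := mul_left_cancel (b.trans hv.symm)
    exact List.forall_mem_cons.2 ⟨e, ih h (List.forall_mem_cons.2 ⟨⟨hk, e⟩, hS⟩)⟩

theorem cox_ne (hn : ¬ IsMulCommutative (CoxPresented α ed ex)) {x y : α} (r : List α)
    (h : x ∈ coxNodes ed ∧ y ∈ coxNodes ed ∧ coll ed [x, y] r = true ∧ ∀ z, z ∈ x :: y :: r) :
    (PresentedGroup.of x : CoxPresented α ed ex) ≠ PresentedGroup.of y := fun e => hn <| by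
  have a : ∀ z, (PresentedGroup.of z : CoxPresented α ed ex) = PresentedGroup.of x := fun z => by
    rcases List.mem_cons.1 (h.2.2.2 z) with rfl | hz
    · rfl
    rcases List.mem_cons.1 hz with rfl | hz
    · exact e.symm
    exact coll_eq (cox_sq h.1) h.2.2.1 (by simp [h.1, h.2.1, e]) z hz
  have t : ∀ u : CoxPresented α ed ex, u ∈ zpowers (PresentedGroup.of x) := fun u =>
    PresentedGroup.generated_by _ _ (fun z => a z ▸ mem_zpowers _) u
  refine ⟨⟨fun u v => ?_⟩⟩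
  obtain ⟨i, rfl⟩ := t u
  obtain ⟨j, rfl⟩ := t v
  exact zpow_mul_comm _ _ _

theorem cox_e9 (hn : ¬ IsMulCommutative (CoxPresented α ed ex)) (a b c d : α) (r s : List α)
    (h1 : a ∈ coxNodes ed ∧ b ∈ coxNodes ed ∧ coll ed [a, b] r = true ∧ ∀ z, z ∈ a :: b :: r)
    (h2 : c ∈ coxNodes ed ∧ d ∈ coxNodes ed ∧ coll ed [c, d] s = true ∧ ∀ z, z ∈ c :: d :: s)
    (h3 : coxLabel ed a b = 3 ∧ coxLabel ed c d = 3 ∧ coxLabel ed a c = 2 ∧ coxLabel ed a d = 2 ∧
      coxLabel ed b c = 2 ∧ coxLabel ed b d = 2) {K : Subgroup (CoxPresented α ed ex)}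
    (ha : PresentedGroup.of a * PresentedGroup.of b ∈ K) (hc : PresentedGroup.of c * PresentedGroup.of d ∈ K) : E9 K := by
  have n : ∀ {x y : α}, y ∈ coxNodes ed → (PresentedGroup.of x : CoxPresented α ed ex) ≠ PresentedGroup.of y →
      (PresentedGroup.of x * PresentedGroup.of y : CoxPresented α ed ex) ≠ 1 := fun hy h e =>
    h (mul_right_cancel (e.trans (cox_sq hy).symm))
  have ac := cox_comm (ex := ex) h1.1 h2.1 h3.2.2.1
  have ad := cox_comm (ex := ex) h1.1 h2.2.1 h3.2.2.2.1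
  have bc := cox_comm (ex := ex) h1.2.1 h2.1 h3.2.2.2.2.1
  have bd := cox_comm (ex := ex) h1.2.1 h2.2.1 h3.2.2.2.2.2
  have r2 := h3.2.1 ▸ cox_rel (ex := ex) h2.1 h2.2.1
  refine .mk' ha hc (h3.1 ▸ cox_rel h1.1 h1.2.1) r2 ((ac.mul_right ad).mul_left (bc.mul_right bd))
    (n h1.2.1 (cox_ne hn r h1)) fun ⟨k, e⟩ => n h2.2.1 (cox_ne hn s h2) ?_
  have c1 := (ac.mul_left bc).zpow_left k
  simp only [e] at c1
  have c2 : Commute (PresentedGroup.of c : CoxPresented α ed ex) (PresentedGroup.of d) :=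
    mul_left_cancel (a := PresentedGroup.of c) (by rw [c1.symm.eq, mul_assoc])
  rw [pow_succ, c2.mul_pow, pow_two, pow_two, cox_sq h2.1, cox_sq h2.2.1, one_mul, one_mul] at r2
  exact r2

theorem cox_mem {x y : α} (h : x ∈ coxNodes ed ∧ y ∈ coxNodes ed ∧ coxLabel ed x y = 3) :
    (PresentedGroup.of x * PresentedGroup.of y : CoxPresented α ed ex) ∈ commutator (CoxPresented α ed ex) := by
  have r := h.2.2 ▸ cox_rel (ex := ex) h.1 h.2.1
  rw [← inv_mem_iff, ← eq_inv_of_mul_eq_one_left ((pow_succ _ 2).symm.trans r)]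
  have := commutator_mem_commutator (mem_top (PresentedGroup.of x : CoxPresented α ed ex)) (mem_top (PresentedGroup.of y))
  rwa [commutatorElement_def, ← eq_inv_of_mul_eq_one_left (cox_sq h.1), ← eq_inv_of_mul_eq_one_left (cox_sq h.2.1),
    mul_assoc (_ * _), ← pow_two] at this
end

theorem nc {G H : Type*} [Group G] [Group H] (hn : ¬ IsMulCommutative G) (f : G →* H) (hf : Function.Injective f) :
    ¬ IsMulCommutative H := fun h => hn ⟨⟨fun a b => hf (by rw [map_mul, map_mul, h.1.1])⟩⟩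

theorem fi22 (hn : ¬ IsMulCommutative Fi22) : E9 Fi22 :=
  (cox_e9 hn .a .b .f .g [.c, .d, .e, .f, .g, .h, .i] [.e, .d, .c, .b, .a, .h, .i] ⟨by decide, by decide, by decide,
    fun z => by cases z <;> decide⟩ ⟨by decide, by decide, by decide, fun z => by cases z <;> decide⟩ (by decide)
    (mem_top _) (mem_top _)).sub
theorem fi23 (hn : ¬ IsMulCommutative Fi23) : E9 Fi23 :=
  (cox_e9 hn .a .b .g .j [.c, .d, .e, .f, .g, .j, .h, .i] [.f, .e, .d, .c, .b, .a, .h, .i] ⟨by decide, by decide, by decide,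
    fun z => by cases z <;> decide⟩ ⟨by decide, by decide, by decide, fun z => by cases z <;> decide⟩ (by decide)
    (mem_top _) (mem_top _)).sub
theorem fi24 (hn : ¬ IsMulCommutative Fi24') : E9 Fi24' :=
  cox_e9 (nc hn _ (subtype_injective _)) .l .k .g .j [.a, .b, .c, .d, .e, .f, .g, .j, .h, .i]
    [.f, .e, .d, .c, .b, .a, .k, .l, .h, .i] ⟨by decide, by decide, by decide, fun z => by cases z <;> decide⟩
    ⟨by decide, by decide, by decide, fun z => by cases z <;> decide⟩ (by decide) (cox_mem (by decide)) (cox_mem (by decide))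
theorem baby (hn : ¬ IsMulCommutative BabyMonster) : E9 BabyMonster :=
  (cox_e9 hn .t1 .t2 .t7 .t8 [.t3, .t4, .t5, .t6, .t7, .t8, .t9, .t10, .t11] [.t6, .t5, .t4, .t3, .t2, .t1, .t9, .t10, .t11]
    ⟨by decide, by decide, by decide, fun z => by cases z <;> decide⟩
    ⟨by decide, by decide, by decide, fun z => by cases z <;> decide⟩ (by decide) (mem_top _) (mem_top _)).sub
theorem monster (hn : ¬ IsMulCommutative Monster) : E9 Monster := by
  have c : ∀ {x y : Bimonster.Gen}, (x ∈ coxNodes Bimonster.edges ∧ y ∈ coxNodes Bimonster.edges ∧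
      coxLabel Bimonster.edges x y = 3) ∧ coxLabel Bimonster.edges .a x = 2 ∧ coxLabel Bimonster.edges .a y = 2 →
      PresentedGroup.of x * PresentedGroup.of y ∈
        centralizer {(PresentedGroup.of .a : Bimonster)} ⊓ commutator Bimonster := fun h =>
    ⟨mem_centralizer_singleton_iff.2 ((cox_comm (by decide) h.1.1 h.2.1).mul_right
      (cox_comm (by decide) h.1.2.1 h.2.2)).symm.eq, cox_mem h.1⟩
  exact cox_e9 (nc hn _ (subtype_injective _)) .e1 .f1 .e2 .f2
    [.d1, .c1, .b1, .a, .b2, .c2, .d2, .e2, .f2, .b3, .c3, .d3, .e3, .f3]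
    [.d2, .c2, .b2, .a, .b1, .c1, .d1, .e1, .f1, .b3, .c3, .d3, .e3, .f3]
    ⟨by decide, by decide, by decide, fun z => by cases z <;> decide⟩
    ⟨by decide, by decide, by decide, fun z => by cases z <;> decide⟩ (by decide) (c (by decide)) (c (by decide))

variable {G : Type*} [Group G]

theorem e9_spor (hn : ¬ IsMulCommutative G) (h : IsSporadicGroup G) (hJ : ¬ IsoJ1 G) : E9 G := by
  rcases h with ⟨⟨e⟩⟩ | ⟨⟨e⟩⟩ | ⟨⟨e⟩⟩ | ⟨⟨e⟩⟩ | ⟨⟨e⟩⟩ | h | ⟨⟨e⟩⟩ | ⟨F, _, _, ω, hF, hω, ⟨e⟩⟩ | ⟨⟨e⟩⟩ |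
    ⟨⟨e⟩⟩ | ⟨⟨e⟩⟩ | ⟨⟨e⟩⟩ | ⟨⟨e⟩⟩ | ⟨⟨e⟩⟩ | ⟨⟨e⟩⟩ | ⟨⟨e⟩⟩ | ⟨⟨e⟩⟩ | ⟨⟨e⟩⟩ | ⟨⟨e⟩⟩ | ⟨⟨e⟩⟩ | ⟨⟨e⟩⟩ | ⟨⟨e⟩⟩ |
    ⟨⟨e⟩⟩ | ⟨⟨e⟩⟩ | ⟨⟨e⟩⟩ | ⟨⟨e⟩⟩
  exacts [m11.congr e.symm, m12.congr e.symm, m22.congr e.symm, m23.congr e.symm, m24.congr e.symm, absurd h hJ,
    j2.congr e.symm, (j3 hF hω).congr e.symm, j4.congr e.symm, co1.congr e.symm, co2.congr e.symm, co3.congr e.symm,
    mcl.congr e.symm, hs.congr e.symm, suz.congr e.symm, he.congr e.symm, ru.congr e.symm, on.congr e.symm,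
    ly.congr e.symm, (fi22 (nc hn e.toMonoidHom e.injective)).congr e.symm,
    (fi23 (nc hn e.toMonoidHom e.injective)).congr e.symm, (fi24 (nc hn e.toMonoidHom e.injective)).congr e.symm,
    Nine.hn.congr e.symm, th.congr e.symm, (baby (nc hn e.toMonoidHom e.injective)).congr e.symm,
    (monster (nc hn e.toMonoidHom e.injective)).congr e.symm]

theorem e9_tits (h : Lie.IsoTits G) : E9 G := h.elim fun e => tits.congr e.symm

theorem e9_2F4 (h : Lie.Iso2F4 G) : E9 G := by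
  obtain ⟨K, _, _, m, _, hK, ⟨e⟩⟩ := h
  have : CharP K 2 := charP_of_card_eq_prime_pow hK
  exact (twF4 K (by positivity)).congr e.symm

end H16.Nine
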