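import Cfsg.Agent.H8.E8H
import Cfsg.Agent.H19.Amb2

/-! Elements of order seven of `Sp₆(2)` in `E₈(3)`. -/

set_option autoImplicit false
set_option maxRecDepth 100000

namespace H16.E8
open Cfsg H8.E8 H0.BC Subgroup Matrix

/-- a large elementary abelian `2`-group with a fixed-point-free automorphism of order seven -/
theorem ne52 {S : Type*} [Group S] [Finite S] {Q : Subgroup S} {x : S} (h7 : x ^ 7 = 1) (h1 : x ≠ 1)
    (h2 : ∀ q ∈ Q, q * q = 1) (hn : x ∈ normalizer (Q : Set S)) (fp : ∀ q ∈ Q, x * q = q * x → q = 1) (h9 : 9 ≤ Nat.card Q)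
    (c : Cx) (f : S →* E83) (hf : Function.Injective f) : c.β (f x) ≠ 52 := fun e => by
  classical
  have : Fact (Nat.Prime 7) := ⟨by norm_num⟩
  have : Fact (Nat.Prime 2) := ⟨Nat.prime_two⟩
  have o : orderOf x = 7 := orderOf_eq_prime h7 h1
  have nz : zpowers x ≤ normalizer (Q : Set S) := zpowers_le.2 hn
  have pQ : IsPGroup 2 Q := fun q => ⟨1, Subtype.ext (by simpa [sq] using h2 q q.2)⟩
  obtain ⟨m, hm⟩ := pQ.exists_card_eq
  have i : Q ⊓ zpowers x = ⊥ := (H19.inf_eq_bot_of_cop (by rw [hm, Nat.card_zpowers, o]; exact Nat.Coprime.pow_left _ (by norm_num)))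
  have cA : Nat.card ↥(Q ⊔ zpowers x) = Nat.card Q * 7 := by
    rw [H19.card_sup_of_disjoint nz i, Nat.card_zpowers, o]
  obtain ⟨u, -, hu⟩ := c.h.unif c.hM (l := 7) (by norm_num) (by norm_num) (by decide) (s := f x) (by rw [← map_pow, h7, map_one])
  have out : ∀ a ∈ Q ⊔ zpowers x, a ∉ Q → c.β (f a) = 52 := fun a ha n => by
    obtain ⟨q, hq, y, hy, rfl⟩ := (H19.mem_sup_of_norm nz).1 ha
    obtain ⟨k, rfl⟩ := (mem_powers_iff_mem_zpowers.2 hy :)
    have k7 : ¬ 7 ∣ k := fun d => n (by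
      have : x ^ k = 1 := orderOf_dvd_iff_pow_eq_one.1 (o ▸ d)
      simpa [this] using hq)
    have gen : x ∈ zpowers (x ^ k) := mem_zpowers_pow_iff.2 (by
      rw [o]; exact ((Nat.Prime.coprime_iff_not_dvd (by norm_num)).2 k7).symm)
    let φ : Q → Q := fun r => ⟨r * (x ^ k * r.1⁻¹ * (x ^ k)⁻¹), mul_mem r.2 (H19.conj_mem_of_norm (nz hy) (inv_mem r.2))⟩
    have inj : Function.Injective φ := fun r s e => by
      have e' : r.1 * (x ^ k * r.1⁻¹ * (x ^ k)⁻¹) = s * (x ^ k * s.1⁻¹ * (x ^ k)⁻¹) := congrArg Subtype.val e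
      have cm : Commute (s.1⁻¹ * r) (x ^ k) := by
        have : s.1⁻¹ * r * x ^ k = s.1⁻¹ * (r * (x ^ k * r.1⁻¹ * (x ^ k)⁻¹)) * x ^ k * r := by group
        rw [Commute, SemiconjBy, this, e']; group
      obtain ⟨j, hj⟩ := mem_zpowers_iff.1 gen
      have := fp _ (mul_mem (inv_mem s.2) r.2) (by rw [← hj]; exact (cm.zpow_right j).symm.eq)
      exact Subtype.ext (inv_mul_eq_one.1 this).symm
    obtain ⟨r, hr⟩ := Finite.injective_iff_surjective.1 inj ⟨q, hq⟩
    have : q * x ^ k = r * x ^ k * r.1⁻¹ := by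
      rw [show q = r * (x ^ k * r.1⁻¹ * (x ^ k)⁻¹) from (congrArg Subtype.val hr).symm]; simp [mul_assoc]
    change c.β (f (q * x ^ k)) = 52
    rw [this, map_mul, map_mul, map_inv, c.h.cl, map_pow, hu k k7, ← hu 1 (by norm_num), pow_one, e]
  have := Fintype.ofFinite Q
  have := Fintype.ofFinite ↥(Q ⊔ zpowers x)
  have s1 := c.sum_eq (f := f) Q (by rw [hm]; exact fun d => absurd ((Nat.prime_three.dvd_of_dvd_pow d)) (by norm_num))
  have s2 := c.sum_eq (f := f) (Q ⊔ zpowers x) (by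
    rw [cA, hm]
    exact fun d => ((Nat.prime_three.dvd_mul).1 d).elim (fun d => absurd (Nat.prime_three.dvd_of_dvd_pow d) (by norm_num))
      (by norm_num))
  have sp : ∀ g : S → ℂ, ∑ a : ↥(Q ⊔ zpowers x), g a = ∑ a : Q, g a +
      ∑ a ∈ Finset.univ.filter fun a : ↥(Q ⊔ zpowers x) => a.1 ∉ Q, g a := fun g => by
    rw [← Finset.sum_filter_add_sum_filter_not _ fun a : ↥(Q ⊔ zpowers x) => a.1 ∈ Q]
    congr 1
    exact (Finset.sum_bij (fun a _ => ⟨a.1, mem_sup_left a.2⟩) (fun a _ => by simp) (fun a _ b _ e => by simpa using e)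
      (fun b hb => ⟨⟨b.1, (Finset.mem_filter.1 hb).2⟩, Finset.mem_univ _, rfl⟩) fun _ _ => rfl).symm
  have s3 := sp fun _ => 52
  rw [sp fun a => c.β (f a), s1, Finset.sum_congr rfl fun (a : ↥(Q ⊔ zpowers x)) ha =>
    out a a.2 (Finset.mem_filter.1 ha).2] at s2
  simp only [Finset.sum_const, Finset.card_univ, ← Nat.card_eq_fintype_card, cA, nsmul_eq_mul] at s2 s3
  have s4 : Nat.card Q * c.dm f Q + Nat.card Q * 312 = Nat.card Q * (7 * c.dm f (Q ⊔ zpowers x)) := by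
    apply Nat.cast_injective (R := ℂ)
    push_cast at s2 s3 ⊢
    linear_combination s2 + s3
  rw [← mul_add, mul_right_inj' (by omega)] at s4
  have s5 := Cx.dm_anti (c := c) (f := f) (le_sup_left : Q ≤ Q ⊔ zpowers x)
  have s6 : (Nat.card Q * c.dm f Q : ℝ) ≤ 224 + Nat.card Q * 24 := by
    have := congrArg Complex.re s1
    rw [Complex.re_sum, ← Nat.cast_mul, Complex.natCast_re, Nat.cast_mul] at this
    rw [← this, Nat.card_eq_fintype_card, ← Finset.card_univ, ← nsmul_eq_mul, ← Finset.sum_const,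
      show (224 : ℝ) = ∑ a : Q, if a = 1 then 224 else 0 by simp, ← Finset.sum_add_distrib]
    refine Finset.sum_le_sum fun a _ => ?_
    split_ifs with k
    · rw [k, coe_one, map_one, c.b1]; norm_num
    · rcases c.b2 (x := f a) (by rw [← map_pow, sq, h2 a a.2, map_one])
        (fun e => k (Subtype.ext (hf (e.trans (map_one f).symm)))) with e | e <;> rw [e] <;> norm_num
  have s7 : Nat.card Q * c.dm f Q ≤ 224 + Nat.card Q * 24 := by exact_mod_cast s6
  have s8 : Nat.card Q * 52 ≤ Nat.card Q * c.dm f Q := Nat.mul_le_mul_left _ (by omega)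
  omega

namespace S7
abbrev M3 := Matrix (Fin 3) (Fin 3) (ZMod 2)
def A : M3 := !![0, 0, 1; 1, 0, 1; 0, 1, 0]
def B : M3 := !![1, 0, 1; 1, 0, 0; 0, 1, 0]
def x : Sp := ⟨fromBlocks A 0 0 B, SymplecticGroup.mem_iff.2 (by decide +kernel)⟩
def y : Sp := ⟨fromBlocks Bᵀ 0 0 Aᵀ, SymplecticGroup.mem_iff.2 (by decide +kernel)⟩
theorem x_inv : x⁻¹ = y := inv_eq_of_mul_eq_one_right (Subtype.ext (by decide +kernel))
theorem sq1 {a : Sp} {S : M3} (h : a.1 = fromBlocks 1 S 0 1) : a * a = 1 := Subtype.ext (by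
  change a.1 * a.1 = 1
  rw [h, fromBlocks_multiply, ← fromBlocks_one]
  simp [CharTwo.add_self_eq_zero])
/-- the unipotent radical -/
def Q : Subgroup Sp where
  carrier := {a | ∃ S : M3, a.1 = fromBlocks 1 S 0 1}
  one_mem' := ⟨0, fromBlocks_one.symm⟩
  mul_mem' := by
    rintro a b ⟨S, h⟩ ⟨T, k⟩
    refine ⟨T + S, ?_⟩
    change a.1 * b.1 = _
    rw [h, k, fromBlocks_multiply]; simp
  inv_mem' := by
    rintro a ⟨S, h⟩
    rw [inv_eq_of_mul_eq_one_right (sq1 h)]; exact ⟨S, h⟩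
theorem AB : A * Bᵀ = 1 ∧ B * Aᵀ = 1 := by decide +kernel
theorem x_n : x ∈ normalizer (Q : Set Sp) := H19.mem_norm_of_cj_le fun _ h' => by
  obtain ⟨a, ⟨S, h⟩, rfl⟩ := H19.mem_cj'.1 h'
  refine ⟨A * S * Aᵀ, ?_⟩
  rw [x_inv]
  change x.1 * a.1 * y.1 = _
  rw [h, x, y, fromBlocks_multiply, fromBlocks_multiply]
  simp [AB.1, AB.2]
theorem fp : ∀ S : M3, A * S = S * B → S = 0 := by decide +kernel
def sy (v : Fin 4 → ZMod 2) : M3 := !![v 0, v 3, 0; v 3, v 1, 0; 0, 0, v 2]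
theorem sy_ok : ∀ v, fromBlocks 1 (sy v) 0 1 * J (Fin 3) (ZMod 2) * (fromBlocks 1 (sy v) 0 1)ᵀ = J (Fin 3) (ZMod 2) := by
  decide +kernel
theorem sy_inj : ∀ v w, sy v = sy w → v = w := by decide +kernel
theorem nine : 9 ≤ Nat.card Q := by
  have := Nat.card_le_card_of_injective (fun v : Fin 4 → ZMod 2 =>
    (⟨⟨_, SymplecticGroup.mem_iff.2 (sy_ok v)⟩, sy v, rfl⟩ : Q)) fun v w e =>
      sy_inj v w (fromBlocks_inj.1 (congrArg (fun a : Q => a.1.1) e)).2.1
  rw [Nat.card_fun, Nat.card_zmod, Nat.card_fin] at this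
  omega
end S7

open S7 in
theorem sp2 : SP2 := by
  have h7 : x ^ 7 = 1 := Subtype.ext (by decide +kernel)
  have h1 : x ≠ 1 := fun e => absurd (congrArg Subtype.val e) (by decide +kernel)
  refine ⟨x, h7, h1, ne52 (Q := Q) h7 h1 (fun q ⟨S, h⟩ => sq1 h) x_n (fun q ⟨S, h⟩ e => Subtype.ext ?_) nine⟩
  have : x.1 * q.1 = q.1 * x.1 := congrArg Subtype.val e
  rw [h, x, fromBlocks_multiply, fromBlocks_multiply, fromBlocks_inj] at this
  rw [h, fp S (by simpa using this.2.1)]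
  exact fromBlocks_one

end H16.E8
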