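import Cfsg.Agent.H20.J4.LH
import Cfsg.Agent.H18.G1b

/-! The orders of the subgroups of a group with the local structure of `J₄`. -/

set_option autoImplicit false
open Subgroup H19 H0 H20.J4
open H26 (frc frc_eq)
namespace H16.JM
variable {G : Type*} [Group G]
local notation "cj" => H19.cj

abbrev n4 : ℕ := 86775571046077562880
def PP : List (ℕ × ℕ) := [(2, 21), (3, 3), (5, 1), (7, 1), (11, 3), (23, 1), (29, 1), (31, 1), (37, 1), (43, 1)]
def CN : List (ℕ × ℕ × ℕ) := [(43, 43, 14), (37, 37, 12), (31, 31, 10), (29, 29, 28), (23, 23, 22), (7, 840, 3)]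
def dv (n : ℕ) : List ℕ := (List.range (n + 1)).filter (· ∣ n)
theorem mem_dv {c n : ℕ} (h : c ∣ n) (hn : 0 < n) : c ∈ dv n :=
  List.mem_filter.2 ⟨List.mem_range.2 (Nat.lt_succ_of_le (Nat.le_of_dvd hn h)), decide_eq_true h⟩
/-- consequences of a normal `l`-complement -/
abbrev burn (m l c : ℕ) : Prop := ∀ d ∈ PP, d.1 = l ∨ m.gcd (d.1 ^ d.2) % l = c.gcd (d.1 ^ d.2) % l
/-- `c`, `c k` are the orders of the centraliser and the normaliser of a Sylow subgroup of order `l` -/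
abbrev cond (m l c k : ℕ) : Prop := l ∣ c ∧ c * k ∣ m ∧ m / (c * k) % l = 1 ∧ (k = 1 → burn m l c)
abbrev Ex (m l C e : ℕ) (R : ℕ → Prop) : Prop := ∃ c ∈ dv C, R c ∧ ∃ k ∈ dv e, cond m l c k
abbrev ok11 (m q : ℕ) : Prop := q = 1 ∨ ∃ d ∈ dv 240, q * d ∣ m ∧ m / (q * d) % q = 1 ∧ (d = 1 → q = 1331 ∨ ¬ 37 ∣ m)
abbrev Ok (m : ℕ) : Prop := (∀ d ∈ CN, d.1 ∣ m → Ex m d.1 d.2.1 d.2.2 fun _ => True) ∧ ok11 m (m.gcd 1331)
/-- all multiples of `a` by a divisor of a product of prime powers -/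
noncomputable def allD (P : ℕ → Bool) : List (ℕ × ℕ) → ℕ → Bool
  | [], a => P a
  | d :: L, a => (List.range (d.2 + 1)).all fun i => frc (a * d.1 ^ i) (allD P L)
theorem allD_sound {P : ℕ → Bool} {L : List (ℕ × ℕ)} (hL : ∀ d ∈ L, d.1.Prime) {a j : ℕ} (h : allD P L a = true)
    (hj : j ∣ (L.map fun d => d.1 ^ d.2).prod) : P (a * j) = true := by
  induction L generalizing a j with
  | nil => rwa [Nat.dvd_one.1 hj, mul_one]
  | cons d L ih =>
    obtain ⟨b, c, h1, h2, rfl⟩ := Nat.dvd_mul.1 hj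
    obtain ⟨i, h3, rfl⟩ := (Nat.dvd_prime_pow (hL d List.mem_cons_self)).1 h1
    exact mul_assoc a _ c ▸ ih (fun e he => hL e (List.mem_cons_of_mem _ he))
      (List.all_eq_true.1 h i (List.mem_range.2 (Nat.lt_succ_of_le h3))) h2

variable [Finite G]
theorem dbl_dvd {P T M : Subgroup G} (h1 : P ≤ T) (h2 : T ≤ M) (h : ∀ a ∈ P, ∀ m ∈ M, m⁻¹ * a * m ∈ T → a = 1 ∨ m ∈ T) :
    T.relIndex M % #P = 1 % #P := by
  let _ : MulAction (P × T) ((M : Set G) \ T : Set G) :=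
    { smul := fun a u => ⟨a.1 * u * a.2.1⁻¹, mul_mem (mul_mem (h2 (h1 a.1.2)) u.2.1) (inv_mem (h2 a.2.2)), fun e => u.2.2 (by
        simpa [mul_assoc] using mul_mem (mul_mem (inv_mem (h1 a.1.2)) e) a.2.2)⟩
      one_smul := fun u => Subtype.ext (show (1 : G) * u * 1⁻¹ = u by simp)
      mul_smul := fun a b u => Subtype.ext
        (show (a.1 * b.1 : G) * u * (a.2 * b.2 : G)⁻¹ = a.1 * (b.1 * u * b.2.1⁻¹) * a.2.1⁻¹ by group) }
  have := Nat.card_congr (MulAction.selfEquivOrbitsQuotientProd (G := P × T) (X := ((M : Set G) \ T : Set G)) fun u =>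
    (eq_bot_iff_forall _).2 fun a e => by
      have e : u.1⁻¹ * a.1 * u = a.2 := by
        rw [mul_assoc, mul_inv_eq_iff_eq_mul.1 (show (a.1 : G) * u * a.2.1⁻¹ = u from congrArg Subtype.val e)]; simp
      have e1 := (h _ a.1.2 u u.2.1 (e ▸ a.2.2)).resolve_right u.2.2
      exact Prod.ext (Subtype.ext e1) (Subtype.ext (by simpa [e1] using e.symm)))
  rw [Nat.card_prod, Nat.card_prod, Nat.card_coe_set_eq, Set.ncard_sdiff h2, ← Nat.card_coe_set_eq (M : Set G),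
    ← Nat.card_coe_set_eq (T : Set G), SetLike.coe_sort_coe, SetLike.coe_sort_coe, ← card_mul_relIndex h2,
    ← Nat.mul_sub_one, ← mul_assoc, mul_comm, Nat.mul_left_inj (card_ne_zero T)] at this
  exact ((Nat.modEq_iff_dvd' (relIndex_pos T M)).2 (Dvd.intro_left _ this.symm)).symm
theorem div_idx {H M : Subgroup G} (h : H ≤ M) : #M / #H = H.relIndex M :=
  Nat.div_eq_of_eq_mul_right (card_pos H) (card_mul_relIndex h).symm
theorem idx_mod {p : ℕ} {P H M : Subgroup G} (hp : p.Prime) (h : Syl p P ⊤) (h1 : P ≤ H) (h2 : H ≤ M) (h3 : M ⊓ N(P) ≤ H) :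
    #M / #H % p = 1 := by
  have a := syl_mod hp (h.of_le (h1.trans h2) le_top)
  rw [← inf_relIndex_left, ← relIndex_mul_relIndex _ H M h3 h2, ← inf_relIndex_left, ← inf_assoc, inf_eq_left.2 h2,
    inf_relIndex_left, Nat.mul_mod, syl_mod hp (h.of_le h1 le_top), Nat.mod_eq_of_lt hp.one_lt, one_mul, Nat.mod_mod] at a
  rw [div_idx h2, a]
theorem syl_gcd {q e : ℕ} {Q M : Subgroup G} (hq : q.Prime) (h : Syl q Q M) (he : ¬ q ^ (e + 1) ∣ Nat.card G) :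
    (#M).gcd (q ^ e) = #Q := by
  refine Nat.dvd_antisymm (h.dvd ((PiN.prime_pow hq e).dvd (Nat.gcd_dvd_right _ _)) (Nat.gcd_dvd_left _ _))
    (Nat.dvd_gcd (card_dvd h.le) ?_)
  obtain ⟨k, c⟩ := h.pi.exists_card
  exact c ▸ pow_dvd_pow q (by_contra fun n => he ((pow_dvd_pow q (by omega)).trans (c ▸ card_subgroup_dvd_card Q)))
theorem burn_sound (c : Nat.card G = n4) {M : Subgroup G} {x : G} {l : ℕ} (hl : l.Prime) (o : orderOf x = l)
    (h : Syl l (zpowers x) M) (hn : M ⊓ N(zpowers x) ≤ C[x]) :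
    ∃ K : Subgroup G, #K * l = #M ∧ burn #M l #(M ⊓ C[x] : Subgroup G) := by
  have K := H18.Burnside_normal_complement h (cent_zpowers x ▸ hn)
  have z := (Nat.card_zpowers x).trans o
  refine ⟨Oc {l}ᶜ M, by rw [← h.card_mul_compl K, z, mul_comm], fun d hd => or_iff_not_imp_left.2 fun n => ?_⟩
  obtain ⟨hq, he⟩ := (by decide +kernel : ∀ d ∈ PP, d.1.Prime ∧ ¬ d.1 ^ (d.2 + 1) ∣ n4) d hd
  have a := h.le.trans (Oc_norm {l}ᶜ M)
  have b := K.pi.coprime' h.pi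
  obtain ⟨Q, q1, q2⟩ := inv_syl_exists d.1 a b (.inl (sol_zpowers x))
  have q3 := inv_syl_inf_cent a b (.inl (sol_zpowers x)) q1 q2
  have q4 := K.inf_of_norm' inf_le_left (inf_le_left.trans (Oc_norm _ M) : M ⊓ C[x] ≤ _)
  rw [cent_zpowers] at q3
  rw [← inf_assoc, inf_eq_left.2 K.le] at q4
  rw [syl_gcd hq (K.sub_syl n q1) (c ▸ he), syl_gcd hq (q4.sub_syl n q3) (c ▸ he)]
  exact ((Nat.modEq_iff_dvd' (card_le inf_le_left)).2 (z ▸ free_dvd q2 (norms_inf q2 ((zpowers_le.2 (mem_cent1_self x)).trans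
    le_normalizer)) inf_le_left fun a ha u hu e => or_iff_not_imp_left.2 fun a1 => ⟨hu, by
      rw [← cent_zpowers, cent_eq_cent1_of_prime (z ▸ hl) ha a1]; exact mem_cent1.2 (mul_inv_eq_iff_eq_mul.1 e).symm⟩)).symm
theorem syl_z {M : Subgroup G} {x : G} {l : ℕ} (hl : l.Prime) (o : orderOf x = l) (hx : x ∈ M) (h2 : ¬ l * l ∣ #M) :
    Syl l (zpowers x) M := by
  obtain ⟨m, e⟩ : l ∣ #M := o ▸ orderOf_dvd_card' hx
  exact H20.J4.syl_card (k := 1) (m := m) hl (zpowers_le.2 hx) (by rw [Nat.card_zpowers, o, pow_one]) (by rw [e, pow_one])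
    fun d => h2 (e ▸ Nat.mul_dvd_mul_left l d)

/-- the local structure of `J₄` -/
structure JF (G : Type*) [Group G] : Prop where
  card : Nat.card G = n4
  cn : ∀ d ∈ CN, ∀ x : G, orderOf x = d.1 → #C[x] = d.2.1 ∧ #N(zpowers x) = d.2.1 * d.2.2
  ti : ∀ U : Subgroup G, Syl 11 U ⊤ → #U = 1331 ∧ #N(U) = 1331 * 240 ∧ ∀ u ∈ U, ∀ g, g⁻¹ * u * g ∈ U → u = 1 ∨ g ∈ N(U)

namespace JF
variable (h : JF G)
include h
omit [Finite G] in
theorem nsq {l : ℕ} (hl : ¬ l * l ∣ n4) (M : Subgroup G) : ¬ l * l ∣ #M := fun d => hl (d.trans (h.card ▸ card_subgroup_dvd_card M))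
theorem cond {d : ℕ × ℕ × ℕ} (hd : d ∈ CN) {M : Subgroup G} {x : G} (hx : x ∈ M) (o : orderOf x = d.1) :
    #(M ⊓ C[x] : Subgroup G) ∈ dv d.2.1 ∧ ∃ k ∈ dv d.2.2, #(M ⊓ C[x] : Subgroup G) * k = #(M ⊓ N(zpowers x) : Subgroup G) ∧
      cond #M d.1 #(M ⊓ C[x] : Subgroup G) k := by
  obtain ⟨hl, h2, h3, h4⟩ := (by decide +kernel : ∀ d ∈ CN, d.1.Prime ∧ ¬ d.1 * d.1 ∣ n4 ∧ 0 < d.2.1 ∧ 0 < d.2.2) d hd
  obtain ⟨c1, c2⟩ := h.cn d hd x o
  have n := cent1_le_norm_zpowers x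
  have s := syl_z hl o hx (h.nsq h2 M)
  have c3 := card_inf_mul_relIndex C[x] (M ⊓ N(zpowers x))
  rw [inf_left_comm, inf_eq_left.2 n] at c3
  rw [← card_mul_relIndex n, c1, Nat.mul_right_inj h3.ne'] at c2
  refine ⟨mem_dv (c1 ▸ card_dvd inf_le_right) h3, _, mem_dv (c2 ▸ relIndex_dvd_of_norm (K := M ⊓ _)
    (inf_le_right.trans (cent_zpowers x ▸ norm_le_norm_cent _)) n inf_le_right) h4, c3,
    o ▸ orderOf_dvd_card' ⟨hx, mem_cent1_self x⟩, c3 ▸ card_dvd inf_le_left, ?_,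
    fun e => (burn_sound h.card hl o s (relIndex_eq_one.1 e)).choose_spec.2⟩
  rw [c3, div_idx inf_le_left, inf_relIndex_left, syl_mod hl s, Nat.mod_eq_of_lt hl.one_lt]
theorem idx {P V M : Subgroup G} (sV : Syl 11 V ⊤) (e : P ≤ V) (hP : P ≤ M) (n : #P ≠ 1) :
    #M / #(M ⊓ N(V) : Subgroup G) % #P = 1 := by
  rw [div_idx inf_le_left, dbl_dvd (le_inf hP (e.trans le_normalizer)) inf_le_left fun a ha m hm t => ((h.ti V sV).2.2 a (e ha) m
    ((sV.of_le le_normalizer le_top).mem_of_normal le_rfl t.2 (by simpa using (sV.pi.elt (e ha)).e_conj m⁻¹))).imp_right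
      fun t => ⟨hm, t⟩, Nat.mod_eq_of_lt (lt_of_le_of_ne (card_pos P) n.symm)]
theorem ok (M : Subgroup G) : Ok #M := by
  refine ⟨fun d hd e => ?_, or_iff_not_imp_left.2 fun n => ?_⟩
  · obtain ⟨x, hx, o⟩ := exists_orderOf_eq_prime ((by decide : ∀ d ∈ CN, d.1.Prime) d hd) e
    obtain ⟨a, k, b, -, c⟩ := h.cond hd hx o
    exact ⟨_, a, trivial, k, b, c⟩
  have hp : Nat.Prime 11 := by norm_num
  obtain ⟨P, hP⟩ := exists_syl 11 M
  obtain ⟨V, sV, e⟩ := hP.pi.exists_syl le_top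
  obtain ⟨u1, u2, u4⟩ := h.ti V sV
  have g := syl_gcd (e := 3) hp hP (by rw [h.card]; decide)
  have e1 : V ⊓ (M ⊓ N(V)) = P := hP.max (le_inf e (le_inf hP.le (e.trans le_normalizer))) (inf_le_right.trans inf_le_left)
    (sV.pi.infl _)
  have c := card_inf_mul_relIndex V (M ⊓ N(V))
  rw [← u1, ← card_mul_relIndex (le_normalizer (H := V)), Nat.mul_right_inj (card_ne_zero V)] at u2
  rw [show 1331 = 11 ^ 3 from rfl, g] at n ⊢
  rw [e1] at c
  refine ⟨_, mem_dv ((relIndex_dvd_of_norm (K := M ⊓ _) inf_le_right le_normalizer inf_le_right).trans u2.dvd) (by decide),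
    c.dvd.trans (card_dvd inf_le_left), c ▸ h.idx sV e hP.le n, fun d => or_iff_not_imp_left.2 fun n1 n2 => ?_⟩
  obtain ⟨a, ha, a1⟩ := exists_ne_one (mt card_eq_one.2 n)
  have K := H18.Burnside_normal_complement hP fun m hm => comm_iff_le_cent.1 (ab_of_card_sq hp (by
    obtain ⟨k, k1, k2⟩ := (Nat.dvd_prime_pow hp).1 (g ▸ Nat.gcd_dvd_right _ _ : #P ∣ 11 ^ 3)
    exact k2 ▸ pow_dvd_pow _ (Nat.le_of_lt_succ (k1.lt_of_ne fun e => n1 (e ▸ k2))))) (e1.le ⟨relIndex_eq_one.1 d ?_, ?_⟩)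
  · obtain ⟨Q, q1, q2⟩ := inv_syl_exists 37 (hP.le.trans (Oc_norm {11}ᶜ M)) (K.pi.coprime' hP.pi) (.inl hP.pi.sol)
    have q3 := K.sub_syl (by simp) q1
    obtain ⟨x, hx, o⟩ := exists_orderOf_eq_prime (by norm_num) (q3.sdvd_card (by norm_num) n2)
    rw [← (syl_z (by norm_num) o (q3.le hx) (h.nsq (by decide) M)).eq_of_le q3 (zpowers_le.2 hx)] at q2
    exact absurd ((hP.pi.dvd_of_ne_bot (ne_bot_of_mem ha a1)).trans ((h.cn (37, 37, 12) (by decide) x o).2 ▸ card_dvd q2)) (by decide)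
  all_goals exact ⟨hm.1, (u4 a (e ha) m (e (conj_mem_of_norm' hm.2 ha))).resolve_left a1⟩
theorem coatom {H : Subgroup G} {n : ℕ} (c : #H = n) {P : ℕ → Prop} [DecidablePred P] (hP : ∀ M, H ≤ M → P #M) (L : List (ℕ × ℕ))
    (e : (∀ d ∈ L, d.1.Prime) ∧ n * (L.map fun d => d.1 ^ d.2).prod = n4 ∧ n ≠ n4 ∧
      allD (fun m => decide (P m → Ok m → m = n ∨ m = n4)) L n = true) : IsCoatom H := by
  refine ⟨fun t => e.2.2.1 (by rw [← c, t, card_top, h.card]), fun M hM => ?_⟩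
  have a := allD_sound e.1 e.2.2.2 (j := H.relIndex M) (Nat.dvd_of_mul_dvd_mul_left (c ▸ card_pos H) (by
    rw [e.2.1, ← c, card_mul_relIndex hM.le, ← h.card]; exact card_subgroup_dvd_card M))
  rw [← c, card_mul_relIndex hM.le] at a
  exact eq_top_of_card_eq _ (((of_decide_eq_true a (hP M hM.le) (h.ok M)).resolve_left (card_lt hM).ne').trans h.card.symm)
end JF

end H16.JM
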