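import Cfsg.Agent.H16.DC14

/-! Computation kit: covering a subgroup of known order by cosets, witnesses for prime divisors of overgroups. -/

namespace H16.JM

open Subgroup Matrix DC
open H26 (frc frc_eq)

variable {G : Type*} [Group G]

/-- counting right cosets -/
theorem cosets [Finite G] {α : Type} {Y D : Subgroup G} (h : D ≤ Y) {L : List α} {w : α → G} {hs : α → ℕ}
    (hw : ∀ a ∈ L, w a ∈ Y) (hc : (L.map hs).IsChain (· < ·))
    (he : ∀ a ∈ L, ∀ b ∈ L, w a * (w b)⁻¹ ∈ D → hs a = hs b) :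
    L.length * Nat.card D ≤ Nat.card Y ∧
      (Nat.card Y ≤ L.length * Nat.card D → ∀ y ∈ Y, ∃ a ∈ L, y * (w a)⁻¹ ∈ D) := by
  let F : _root_.Fin L.length × D → Y := fun x => ⟨x.2 * w L[x.1], mul_mem (h x.2.2) (hw _ (List.getElem_mem _))⟩
  have i : Function.Injective F := fun ⟨i, d⟩ ⟨j, e⟩ q => by
    have q : (d : G) * w L[i] = e * w L[j] := congrArg Subtype.val q
    have := he _ (List.getElem_mem i.2) _ (List.getElem_mem j.2) (by
      convert mul_mem (inv_mem d.2) e.2 using 1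
      rw [mul_inv_eq_iff_eq_mul, mul_assoc, eq_inv_mul_iff_mul_eq]; exact q)
    obtain rfl : i = j := Fin.ext (Fin.mk.inj (List.nodup_iff_injective_get.1 (List.isChain_iff_pairwise.1 hc).nodup
      (a₁ := ⟨i, by simp⟩) (a₂ := ⟨j, by simp⟩) (by simpa using this)))
    rw [Subtype.ext (mul_right_cancel q)]
  have c : Nat.card (_root_.Fin L.length × D) = L.length * Nat.card D := by simp
  refine ⟨c ▸ Nat.card_le_card_of_injective F i, fun q y hy => ?_⟩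
  obtain ⟨⟨i, d⟩, e⟩ := (i.bijective_of_nat_card_le (c ▸ q)).2 ⟨y, hy⟩
  exact ⟨_, List.getElem_mem i.2, by rw [← show (d : G) * w L[i] = y from congrArg Subtype.val e]; simp⟩

variable {r n p : ℕ}

/-- the letters `δ` are represented by the matrices `g` -/
def Em (f : G →* GL (_root_.Fin n) (ZMod p)) (δ : ℕ → G) (g : ℕ → GL (_root_.Fin n) (ZMod p)) (K : ℕ) : Prop :=
  Function.Injective f ∧ ∀ k < K, f (δ k) = g k

namespace Em
variable {f : G →* GL (_root_.Fin n) (ZMod p)} {δ : ℕ → G} {g : ℕ → GL (_root_.Fin n) (ZMod p)} {K : ℕ} (h : Em f δ g K)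
include h

theorem ev {W : List ℕ} (hW : ∀ k ∈ W, k < K) : f (evA δ W) = evA g W :=
  (map_evA δ f W).trans (evA_congr _ fun k hk => h.2 k (hW k hk))

theorem wds {U : List (List ℕ)} (hU : allL (ltAll K) U = true) (m : ℕ) : Em f (wds δ U) (wds g U) m :=
  ⟨h.1, fun k _ => h.ev (nth_lt hU k)⟩

theorem prs {L : List (List ℕ × List ℕ)} {m : ℕ} (q : FP.Prs g L m)
    (hL : L.length = m ∧ ∀ d ∈ L, ltAll K d.1 = 0 ∧ ltAll K d.2 = 0) : ∀ d ∈ L, evA δ d.1 = evA δ d.2 := fun d hd =>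
  h.1 ((h.ev (ltAll_zero (hL.2 d hd).1)).trans ((q.all hL.1 d hd).trans (h.ev (ltAll_zero (hL.2 d hd).2)).symm))

theorem ne {U V : List ℕ} (q : evA g U ≠ evA g V) (hU : ltAll K U = 0 ∧ ltAll K V = 0) : evA δ U ≠ evA δ V :=
  fun e => q ((h.ev (ltAll_zero hU.1)).symm.trans (e ▸ h.ev (ltAll_zero hU.2)))

end Em

/-- the entries `< m` are checked -/
def Up {α : Type} (F : α → ℕ) (L : List α) (m : ℕ) : Prop := ∀ d ∈ L.take m, F d = 0

noncomputable def chk {α : Type} (q : FP r n p) (C : List ℕ) (F : FP r n p → List ℕ → α → ℕ) (L : List α) (lo m : ℕ) :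
    Bool := q.run fun q => frcs C fun C => allL (F q C) ((L.drop lo).take m)

theorem Up.zero {α : Type} {F : α → ℕ} {L : List α} : Up F L 0 := fun _ h => absurd h List.not_mem_nil

theorem Up.step {α : Type} {q : FP r n p} {C : List ℕ} {F : FP r n p → List ℕ → α → ℕ} {L : List α} {lo m : ℕ}
    (h : Up (F q C) L lo) (hc : chk q C F L lo m = true) : Up (F q C) L (lo + m) := by
  rw [chk, FP.run_eq, frcs_eq] at hc
  exact fun d hd => (List.mem_append.1 (List.take_add ▸ hd)).elim (h d) (allL_sound hc d)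

theorem Up.all {α : Type} {F : α → ℕ} {L : List α} {m : ℕ} (h : Up F L m) (e : L.length = m) : ∀ d ∈ L, F d = 0 :=
  fun d hd => h d (by rwa [← e, List.take_length])

/-- `0` iff the letters lie in `[a, b)` -/
noncomputable def inR (a b : ℕ) (W : List ℕ) : ℕ := sumL (fun k => Nat.add (Nat.sub a k) (Nat.sub (Nat.succ k) b)) W

theorem inR_zero {a b : ℕ} {W : List ℕ} (h : inR a b W = 0) : ∀ k ∈ W, a ≤ k ∧ k < b := fun k hk => by
  have : a - k + (k + 1 - b) = 0 := sumL_zero h k hk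
  omega

/-- `0` iff the codes differ -/
noncomputable def dif (q : FP n n p) (X Y : ℕ) : ℕ := frc (Nat.shiftLeft (nat_lit 1) (Nat.mul q.w (Nat.mul n n))) fun T =>
  Bool.rec (motive := fun _ => ℕ) (nat_lit 0) (nat_lit 1) (Nat.beq (Nat.mod X T) (Nat.mod Y T))

theorem dif_ne {q : FP n n p} {a b : GL (_root_.Fin n) (ZMod p)} {X Y : ℕ} (ha : q.Rp a X) (hb : q.Rp b Y)
    (h : dif q X Y = 0) : a ≠ b := fun e => by
  have : X % 1 <<< (q.w * (n * n)) = Y % 1 <<< (q.w * (n * n)) := by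
    rw [Nat.one_shiftLeft, ← fld_zero, ← fld_zero, (rep_fld (fld_lt _ X 0)).1, (rep_fld (fld_lt _ Y 0)).1]
    refine Finset.sum_congr rfl fun i hi => ?_
    have hi := Finset.mem_range.1 hi
    rw [fld_fld hi, fld_fld hi, mul_zero, zero_add, ha.fld_eq (e ▸ hb) hi]
  rw [dif, frc_eq, show Nat.beq (Nat.mod X _) _ = true from Nat.beq_eq ▸ this] at h
  exact absurd h one_ne_zero

/-- the exponent with the binary digits `B` below a leading one -/
def ex : List ℕ → ℕ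
  | [] => 1
  | b :: B => 2 * ex B + min b 1

noncomputable def pw (q : FP n n p) (X : ℕ) (B : List ℕ) : ℕ :=
  List.rec (motive := fun _ => ℕ) X (fun b _ ih => frc ih fun Y => frc (q.mm Y Y) fun Z =>
    Nat.rec (motive := fun _ => ℕ) Z (fun _ _ => q.mm Z X) b) B

theorem pw_sound {q : FP n n p} (h : q.OK) {a : GL (_root_.Fin n) (ZMod p)} {X : ℕ} (ha : q.Rp a X) (B : List ℕ) :
    q.Rp (a ^ ex B) (pw q X B) := by
  induction B with
  | nil => exact (pow_one a).symm ▸ ha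
  | cons b B ih =>
    cases b with
    | zero => rw [show ex (0 :: B) = ex B + ex B by simp [ex, two_mul], pow_add]; exact ih.mul h ih
    | succ b => rw [show ex ((b + 1) :: B) = ex B + ex B + 1 by simp [ex, two_mul], pow_succ, pow_add]; exact (ih.mul h ih).mul h ha

/-- a word in the letters `< A` and the new letter `W`, with a power -/
noncomputable def wit (q : FP n n p) (C : List ℕ) (A : ℕ) (W V B : List ℕ) (k : ℕ → ℕ → ℕ) : ℕ :=
  Nat.add (ltAll (Nat.succ A) V) (frc (q.ev C W) fun c => frc (q.ev (c :: C) V) fun X => frc (pw q X B) (k X))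

/-- one more letter -/
def cns (c : G) (δ : ℕ → G) (k : ℕ) : G := Nat.rec (motive := fun _ => G) c (fun j _ => δ j) k

/-- the order of a letter -/
noncomputable def ordE (K : ℕ) (q : FP n n p) (C : List ℕ) (d : ℕ × ℕ) : ℕ :=
  Nat.add (Nat.add (Nat.add (Nat.sub (Nat.succ d.1) K) (Nat.sub (nat_lit 1) d.2))
    (Nat.xor (q.ev C (List.replicate d.2 d.1)) (oneF n q.w))) (sumL (fun l => Bool.rec (motive := fun _ => ℕ) (nat_lit 0)
      (dif q (q.ev C (List.replicate (Nat.div d.2 l) d.1)) (oneF n q.w))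
      (Nat.beq (Nat.mod d.2 l) (nat_lit 0) && Nat.blt (nat_lit 1) l)) (List.range (Nat.succ d.2)))

theorem evA_rep (δ : ℕ → G) (m k : ℕ) : evA δ (List.replicate m k) = δ k ^ m := by
  induction m with
  | zero => exact (pow_zero _).symm
  | succ m ih => rw [List.replicate_succ, evA_cons, ih, pow_succ]

theorem Em.ord {q : FP n n p} {f : G →* GL (_root_.Fin n) (ZMod p)} {δ : ℕ → G} {g : ℕ → GL (_root_.Fin n) (ZMod p)}
    {C : List ℕ} {K : ℕ} (he : Em f δ g K) (h : q.OK) (hg : q.RpL g C K) {L : List (ℕ × ℕ)}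
    (hc : chk q C (ordE K) L 0 L.length = true) : ∀ d ∈ L, orderOf (δ d.1) = d.2 := fun d hd => by
  have a := (Up.zero.step hc).all (zero_add _).symm d hd
  simp only [ordE, Nat.add_eq, Nat.add_eq_zero_iff, Nat.sub_eq, Nat.succ_eq_add_one] at a
  have b : ∀ m, q.Rp (f (δ d.1 ^ m)) (q.ev C (List.replicate m d.1)) := fun m => by
    have l : ∀ k ∈ List.replicate m d.1, k < K := fun k hk => by rw [List.eq_of_mem_replicate hk]; omega
    rw [← evA_rep, he.ev l]; exact hg.ev h l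
  refine orderOf_eq_of_pow_and_pow_div_prime (by omega) (he.1 ((b _).eq (by rw [map_one, xor_zero a.1.2]; exact h.rp_one)))
    fun l hl e e1 => dif_ne (b (d.2 / l)) h.rp_one ?_ (by rw [e1, map_one])
  have := sumL_zero a.2 l (List.mem_range.2 (Nat.lt_succ_of_le (Nat.le_of_dvd (by omega) e)))
  rwa [show (Nat.beq (Nat.mod d.2 l) 0 && Nat.blt 1 l) = true by
    simpa using ⟨Nat.mod_eq_zero_of_dvd e, hl.one_lt⟩] at this

/-- letters normalising the letter `u` -/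
def nP (u : ℕ) (L : List (ℕ × ℕ)) : List (List ℕ × List ℕ) := L.map fun d => ([u, d.1], d.1 :: List.replicate d.2 u)

theorem nP_eq {δ : ℕ → G} {u : ℕ} {L : List (ℕ × ℕ)} (h : ∀ d ∈ nP u L, evA δ d.1 = evA δ d.2) :
    ∀ d ∈ L, δ d.1 * δ u = δ u ^ d.2 * δ d.1 := fun d hd => by
  simpa only [evA_cons, evA_nil, one_mul, evA_rep] using h _ (List.mem_map_of_mem hd)

theorem nP_norm [Finite G] {δ : ℕ → G} {u a b : ℕ} {L : List (ℕ × ℕ)} (h : ∀ d ∈ nP u L, evA δ d.1 = evA δ d.2)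
    (e : ∀ k < b, a ≤ k → k ∈ L.map (·.1)) (k : ℕ) (h1 : a ≤ k) (h2 : k < b) : δ k ∈ normalizer (zpowers (δ u) : Set G) := by
  obtain ⟨d, hd, rfl⟩ := List.mem_map.1 (e k h2 h1)
  refine mem_normalizer_fintype fun x hx => ?_
  obtain ⟨i, rfl⟩ := mem_zpowers_iff.1 hx
  rw [← conj_zpow, nP_eq h d hd, mul_inv_cancel_right]
  exact zpow_mem (npow_mem_zpowers _ _) i

theorem nP_cent {δ : ℕ → G} {u a b : ℕ} {L : List (ℕ × ℕ)} (h : ∀ d ∈ nP u L, evA δ d.1 = evA δ d.2)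
    (e : ∀ k < b, a ≤ k → (k, 1) ∈ L) (k : ℕ) (h1 : a ≤ k) (h2 : k < b) : δ k ∈ centralizer {δ u} :=
  mem_centralizer_singleton_iff.2 (by simpa using nP_eq h _ (e k h2 h1))

/-- letters which are powers of the letter `u` -/
def pP (u : ℕ) (L : List (ℕ × ℕ)) : List (List ℕ × List ℕ) := L.map fun d => ([d.1], List.replicate d.2 u)

theorem pP_eq {δ : ℕ → G} {u : ℕ} {L : List (ℕ × ℕ)} (h : ∀ d ∈ pP u L, evA δ d.1 = evA δ d.2) :
    ∀ d ∈ L, δ d.1 = δ u ^ d.2 := fun d hd => by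
  simpa only [evA_cons, evA_nil, one_mul, evA_rep] using h _ (List.mem_map_of_mem hd)

/-- data of a cover -/
structure Cv where
  K₁ : ℕ
  A : ℕ
  K : ℕ
  v : ℕ
  M : ℕ
  T : ℕ
  B : List ℕ
  iv : List ℕ
  Wt : List (List ℕ × List ℕ)
  E : List (List ℕ × ℕ × List ℕ × ℕ)

namespace Cv
variable (c : Cv)

noncomputable def wd (d : List ℕ × ℕ × List ℕ × ℕ) : List ℕ := d.1 ++ ((nth ([], []) c.Wt d.2.1).1 ++ d.2.2.1)
noncomputable def cj (W : List ℕ) : List ℕ := W ++ c.T :: (W.map (nth (nat_lit 0) c.iv)).reverse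
noncomputable def hx (q : FP r n p) (C W : List ℕ) : ℕ := Nat.mod (rowF q (apR q C W c.v) (nat_lit 0)) c.M
noncomputable def ent (mk : List ℕ → List ℕ) (q : FP r n p) (C : List ℕ) (d : List ℕ × ℕ × List ℕ × ℕ) : ℕ :=
  Nat.add (Nat.add (inR c.K₁ c.A d.1) (inR c.K₁ c.A d.2.2.1)) (Nat.xor (c.hx q C (mk (c.wd d))) d.2.2.2)
noncomputable def rep (mk : List ℕ → List ℕ) (alt : ℕ) (q : FP n n p) (C : List ℕ) (d : List ℕ × List ℕ) : ℕ :=
  Nat.add (inR c.K₁ c.K d.1) (List.rec (motive := fun _ => ℕ) (nat_lit 0) (fun _ _ _ => List.rec (motive := fun _ => ℕ)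
    (Nat.add alt (wit q C c.A (mk d.1) [nat_lit 0, Nat.succ c.T] [nat_lit 0, nat_lit 0] (dif q)))
    (fun _ _ _ => wit q C c.A (mk d.1) d.2 c.B fun X Y => Nat.add (Nat.xor X Y) (dif q X (oneF n q.w))) d.2) d.1)

variable {c} {q : FP n n p} {q₁ : FP r n p} {f : G →* GL (_root_.Fin n) (ZMod p)} {δ : ℕ → G}
  {g : ℕ → GL (_root_.Fin n) (ZMod p)} {C : List ℕ} (h : q.OK) (hg : q.RpL g C c.K) (he : Em f δ g c.K)
include h hg he

theorem wit_sound {W V B : List ℕ} {k : ℕ → ℕ → ℕ} (hA : c.A ≤ c.K) (hW : ∀ j ∈ W, j < c.K) (e : wit q C c.A W V B k = 0) :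
    (∀ j ∈ V, j < c.A + 1) ∧ ∃ X Y, q.Rp (f (evA (cns (evA δ W) δ) V)) X ∧
      q.Rp (f (evA (cns (evA δ W) δ) V ^ ex B)) Y ∧ k X Y = 0 := by
  simp only [wit, frc_eq, Nat.add_eq, Nat.add_eq_zero_iff] at e
  have a : q.RpL (fun j => f (cns (evA δ W) δ j)) (q.ev C W :: C) (c.A + 1) := fun j hj => by
    cases j with
    | zero => exact (he.ev hW ▸ hg.ev h hW : q.Rp (f (evA δ W)) _)
    | succ j => exact (he.2 j (by omega) ▸ hg j (by omega) : q.Rp (f (δ j)) _)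
  have b := a.ev h (ltAll_zero e.1)
  rw [← map_evA] at b
  exact ⟨ltAll_zero e.1, _, _, b, map_pow f _ _ ▸ pw_sound h b B, e.2⟩

theorem rep_sound [Finite G] {mk : List ℕ → List ℕ} {alt l : ℕ} (hl : l.Prime) (e : c.A ≤ c.K ∧ ex c.B = l + 1)
    (hm : ∀ W, (∀ k ∈ W, c.K₁ ≤ k ∧ k < c.K) → ∀ k ∈ mk W, k < c.K) (hR : ∀ d ∈ c.Wt, c.rep mk alt q C d = 0) (j : ℕ) :
    (∀ k ∈ (nth ([], []) c.Wt j).1, c.K₁ ≤ k ∧ k < c.K) ∧ ((nth ([], []) c.Wt j).1 = [] ∨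
      (alt = 0 ∧ (δ c.T * evA δ (mk (nth ([], []) c.Wt j).1)) ^ 3 ≠ 1) ∨ ∀ M : Subgroup G, (∀ k < c.A, δ k ∈ M) →
        evA δ (mk (nth ([], []) c.Wt j).1) ∈ M → l ∣ Nat.card M) := by
  rcases nth_mem ([], []) c.Wt j with a | a
  · rw [a]; exact ⟨by simp, .inl rfl⟩
  have a := hR _ a
  generalize nth ([], []) c.Wt j = d at a
  obtain ⟨W, V⟩ := d
  obtain ⟨a1, a2⟩ := Nat.add_eq_zero_iff.1 a
  have a3 := hm W (inR_zero a1)
  refine ⟨inR_zero a1, ?_⟩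
  cases W with
  | nil => exact .inl rfl
  | cons i W =>
    cases V with
    | nil =>
      obtain ⟨a4, a5⟩ := Nat.add_eq_zero_iff.1 a2
      obtain ⟨-, X, Y, b1, b2, b3⟩ := wit_sound h hg he e.1 a3 a5
      refine .inr (.inl ⟨a4, fun b4 => dif_ne b1 b2 b3 (congrArg f ?_)⟩)
      rw [show ex [0, 0] = 3 + 1 from rfl, pow_succ]
      simp only [evA_cons, evA_nil, one_mul]
      exact (right_eq_mul.2 b4 :)
    | cons j V =>
      obtain ⟨b0, X, Y, b1, b2, b3⟩ := wit_sound h hg he e.1 a3 a2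
      obtain ⟨b3, b4⟩ := Nat.add_eq_zero_iff.1 b3
      refine .inr (.inr fun M h1 h2 => ?_)
      have := Fact.mk hl
      have b5 := he.1 (b2.eq (xor_zero b3 ▸ b1))
      rw [e.2, pow_succ, mul_eq_right] at b5
      refine orderOf_eq_prime b5 (fun b6 => dif_ne b1 h.rp_one b4 (by rw [b6, map_one])) ▸
        orderOf_dvd_natCard M (evA_mem _ fun k hk => ?_)
      cases k with
      | zero => exact h2
      | succ k => exact h1 k (by have := b0 _ hk; omega)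

omit h in
theorem hx_eq (h₁ : q₁.OK) (e : q.w = q₁.w ∧ 0 < r ∧ q₁.red c.v = c.v) {U V : List ℕ} (hU : ∀ k ∈ U, k < c.K)
    (hV : ∀ k ∈ V, k < c.K) (a : f (evA δ U * (evA δ V)⁻¹) ∈ fixR (rowV n p q₁.w c.v 0)) : c.hx q₁ C U = c.hx q₁ C V := by
  have a1 := apR_sound h₁ e.1 hg (h₁.nm e.2.2) hU
  have a2 := apR_sound h₁ e.1 hg (h₁.nm e.2.2) hV
  refine congrArg (· % c.M) (rowV_inj h₁ a1.1 a2.1 e.2.1 e.2.1 ?_)
  rw [a1.2 0 e.2.1, a2.2 0 e.2.1, ← he.ev hU, ← he.ev hV]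
  nth_rw 2 [← show _ = _ from a]
  rw [vecMul_vecMul, ← Units.val_mul, ← map_mul, inv_mul_cancel_right]

omit h hg he in
theorem ent_sound {mk : List ℕ → List ℕ} {d : List ℕ × ℕ × List ℕ × ℕ} (hE : c.ent mk q₁ C d = 0) :
    (∀ k ∈ d.1, c.K₁ ≤ k ∧ k < c.A) ∧ (∀ k ∈ d.2.2.1, c.K₁ ≤ k ∧ k < c.A) ∧ c.hx q₁ C (mk (c.wd d)) = d.2.2.2 := by
  simp only [ent, Nat.add_eq, Nat.add_eq_zero_iff] at hE
  exact ⟨inR_zero hE.1.1, inR_zero hE.1.2, xor_zero hE.2⟩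

omit h hg he in
theorem wd_lt {d : List ℕ × ℕ × List ℕ × ℕ} (hA : c.A ≤ c.K) (h1 : ∀ k ∈ d.1, c.K₁ ≤ k ∧ k < c.A)
    (h2 : ∀ k ∈ d.2.2.1, c.K₁ ≤ k ∧ k < c.A) (h3 : ∀ k ∈ (nth ([], []) c.Wt d.2.1).1, c.K₁ ≤ k ∧ k < c.K) :
    ∀ k ∈ c.wd d, c.K₁ ≤ k ∧ k < c.K := fun k hk => by
  simp only [wd, List.mem_append] at hk
  rcases hk with a | a | a
  exacts [(h1 k a).imp_right (·.trans_le hA), h3 k a, (h2 k a).imp_right (·.trans_le hA)]

/-- the cosets of the cyclic group generated by the letter `T` -/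
theorem cover [Finite G] (h₁ : q₁.OK) {l a b : ℕ} (hl : l.Prime) (hE : Up (c.ent id q₁ C) c.E a)
    (hR : Up (c.rep id 1 q C) c.Wt b) (e : (c.E.length = a ∧ c.Wt.length = b) ∧ (q.w = q₁.w ∧ 0 < r ∧ q₁.red c.v = c.v) ∧
      (c.A ≤ c.K ∧ ex c.B = l + 1) ∧ (c.K₁ ≤ c.T ∧ c.T < c.A) ∧ rowF q₁ (apR q₁ C [c.T] c.v) 0 = rowF q₁ c.v 0 ∧
      (c.E.map (·.2.2.2)).IsChain (· < ·)) {Y : Subgroup G} (hY : ∀ k, c.K₁ ≤ k → k < c.K → δ k ∈ Y) :
    a * orderOf (δ c.T) ≤ Nat.card Y ∧ (Nat.card Y ≤ a * orderOf (δ c.T) → ∀ B M : Subgroup G, B ≤ M →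
      (∀ k, c.K₁ ≤ k → k < c.A → δ k ∈ B) → (∀ k < c.K₁, δ k ∈ M) → M ⊓ Y ≤ B ∨ l ∣ Nat.card M) := by
  obtain ⟨⟨e1, e2⟩, e3, e4, e5, e6, e7⟩ := e
  have R := rep_sound h hg he hl e4 (fun W hW k hk => (hW k hk).2) (hR.all e2)
  have S := fun d hd => ent_sound (hE.all e1 d hd)
  have L := fun d hd => wd_lt e4.1 (S d hd).1 (S d hd).2.1 (R _).1
  have tK := e5.2.trans_le e4.1
  have F : zpowers (δ c.T) ≤ (fixR (rowV n p q₁.w c.v 0)).comap f := zpowers_le.2 (by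
    have := (apR_sound h₁ e3.1 hg (W := [c.T]) (h₁.nm e3.2.2) (by simpa using tK)).2 0 e3.2.1
    rw [rowV_of h₁ e6, evA_cons, evA_nil, one_mul, ← he.2 _ tK] at this
    exact this.symm)
  obtain ⟨a1, a2⟩ := cosets (zpowers_le.2 (hY _ e5.1 tK)) (w := fun d => evA δ (c.wd d))
    (fun d hd => evA_mem δ fun k hk => hY k (L d hd k hk).1 (L d hd k hk).2) e7 fun d hd d' hd' a =>
      (S d hd).2.2.symm.trans ((hx_eq hg he h₁ e3 (fun k hk => (L d hd k hk).2) (fun k hk => (L d' hd' k hk).2) (F a)).trans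
        (S d' hd').2.2)
  rw [e1, Nat.card_zpowers] at a1 a2
  refine ⟨a1, fun a3 B M h1 h2 h3 => or_iff_not_imp_right.2 fun h4 y hy => ?_⟩
  obtain ⟨d, hd, a4⟩ := a2 a3 y hy.2
  have a4 := zpowers_le.2 (h2 _ e5.1 e5.2) a4
  have a5 := evA_mem δ fun k hk => h2 k ((S d hd).1 k hk).1 ((S d hd).1 k hk).2
  have a6 := evA_mem δ fun k hk => h2 k ((S d hd).2.1 k hk).1 ((S d hd).2.1 k hk).2
  simp only [wd, evA_append] at a4
  rcases (R d.2.1).2 with a7 | a7 | a7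
  · rw [a7, evA_nil, mul_one] at a4
    simpa only [inv_mul_cancel_right] using mul_mem a4 (mul_mem a6 a5)
  · exact absurd a7.1 one_ne_zero
  refine (h4 (a7 M (fun k hk => (lt_or_ge k c.K₁).elim (h3 k) fun b => h1 (h2 k b hk)) ?_)).elim
  simpa [mul_assoc] using mul_mem (mul_mem (inv_mem (h1 a6)) (mul_mem (inv_mem (h1 a4)) hy.1)) (inv_mem (h1 a5))

/-- the conjugates of the letter `T` -/
theorem cls [Finite G] (h₁ : q₁.OK) {l a b : ℕ} (hl : l.Prime) (hE : Up (c.ent c.cj q₁ C) c.E a)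
    (hR : Up (c.rep c.cj 0 q C) c.Wt b) (e : (c.E.length = a ∧ c.Wt.length = b) ∧ (q.w = q₁.w ∧ 0 < r ∧ q₁.red c.v = c.v) ∧
      (c.A ≤ c.K ∧ ex c.B = l + 1) ∧ (c.T < c.K ∧ ∀ k < c.K, nth 0 c.iv k < c.K) ∧ (∀ d ∈ c.E, d.2.2.1 = []) ∧
      (c.E.map (·.2.2.2)).IsChain (· < ·)) {Y : Subgroup G} (hY : ∀ k, c.K₁ ≤ k → k < c.K → δ k ∈ Y ∧ δ (nth 0 c.iv k) = (δ k)⁻¹)
    (hT : ∀ k, c.K₁ ≤ k → k < c.A → δ k ∈ centralizer {δ c.T}) :
    a * Nat.card (Y ⊓ centralizer {δ c.T} : Subgroup G) ≤ Nat.card Y ∧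
      (Nat.card Y ≤ a * Nat.card (Y ⊓ centralizer {δ c.T} : Subgroup G) → ∀ M : Subgroup G, (∀ k < c.A, δ k ∈ M) →
        l ∣ Nat.card M ∨ ∀ y ∈ Y, y⁻¹ * δ c.T * y ∈ M → (δ c.T * (y⁻¹ * δ c.T * y)) ^ 3 = 1 → y ∈ centralizer {δ c.T}) := by
  obtain ⟨⟨e1, e2⟩, e3, e4, e5, e6, e7⟩ := e
  have J : ∀ W, (∀ k ∈ W, c.K₁ ≤ k ∧ k < c.K) → ∀ k ∈ c.cj W, k < c.K := fun W hW k hk => by
    simp only [cj, List.mem_append, List.mem_cons, List.mem_reverse, List.mem_map] at hk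
    rcases hk with a | rfl | ⟨j, a, rfl⟩
    exacts [(hW k a).2, e5.1, e5.2 j (hW j a).2]
  have J' : ∀ W, (∀ k ∈ W, c.K₁ ≤ k ∧ k < c.K) → evA δ (c.cj W) = (evA δ W)⁻¹ * δ c.T * evA δ W := fun W hW => by
    rw [cj, evA_append, evA_cons, evA_inv fun k hk => (hY k (hW k hk).1 (hW k hk).2).2]
  have R := rep_sound h hg he hl e4 J (hR.all e2)
  have S := fun d hd => ent_sound (hE.all e1 d hd)
  have L := fun d hd => wd_lt e4.1 (S d hd).1 (S d hd).2.1 (R _).1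
  have k : ∀ {x y : G}, x * y⁻¹ ∈ centralizer {δ c.T} → x⁻¹ * δ c.T * x = y⁻¹ * δ c.T * y := fun {x y} a => by
    have := mem_centralizer_singleton_iff.1 a
    rw [← mul_assoc, eq_mul_inv_iff_mul_eq] at this
    rw [mul_assoc, ← this]; group
  obtain ⟨a1, a2⟩ := cosets (inf_le_left (b := centralizer {δ c.T})) (w := fun d => evA δ (c.wd d))
    (fun d hd => evA_mem δ fun k hk => (hY k (L d hd k hk).1 (L d hd k hk).2).1) e7 fun d hd d' hd' a =>
      (S d hd).2.2.symm.trans ((hx_eq hg he h₁ e3 (J _ (L d hd)) (J _ (L d' hd')) (by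
        rw [J' _ (L d hd), J' _ (L d' hd'), k a.2, mul_inv_cancel, map_one]; exact one_mem _)).trans (S d' hd').2.2)
  rw [e1] at a1 a2
  refine ⟨a1, fun a3 M h1 => or_iff_not_imp_left.2 fun h4 y hy h2 h3 => ?_⟩
  obtain ⟨d, hd, a4⟩ := a2 a3 y hy
  have a5 := evA_mem δ fun k hk => h1 k ((S d hd).1 k hk).2
  have a6 := evA_mem δ fun k hk => hT k ((S d hd).1 k hk).1 ((S d hd).1 k hk).2
  have a8 := k a4.2
  simp only [wd, evA_append, e6 d hd, evA_nil, one_mul] at a4 a8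
  rcases (R d.2.1).2 with a7 | a7 | a7
  · rw [a7, evA_nil, one_mul] at a4
    simpa using mul_mem a4.2 a6
  · refine (a7.2 ?_).elim
    rw [J' _ (R _).1, ← conj_eq_one_iff (a := (evA δ d.1)⁻¹), ← conj_pow, ← h3, a8, inv_inv, _root_.mul_inv_rev]
    congr 1
    simp only [← mul_assoc]
    rw [mem_centralizer_singleton_iff.1 (inv_mem a6)]
  refine (h4 (a7 M h1 ?_)).elim
  rw [J' _ (R _).1]
  rw [a8] at h2
  simpa [mul_assoc] using mul_mem (mul_mem a5 h2) (inv_mem a5)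

end Cv

end H16.JM
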