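import Cfsg.Agent.H16.JM1
import Cfsg.Agent.H16.P.JM11
import Cfsg.Agent.H16.P.JM29
import Cfsg.Agent.H16.P.JM37
import Cfsg.Agent.H16.P.JM43
import Cfsg.Agent.H16.D.J4d
import Cfsg.Agent.H19.D8
import Cfsg.Agent.H20.J4.CE
import Cfsg.Agent.H20.J4.ME

/-! Local maximal subgroups of `J₄`. -/

set_option autoImplicit false
open Subgroup H19 H0 H20.J4
namespace H16.JM
variable {G : Type*} [Group G] [Finite G]
local notation "cj" => H19.cj

theorem aut_tot (x : G) : C[x].relIndex N(zpowers x) ∣ (orderOf x).totient := by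
  rw [relIndex, ← cent_zpowers, ← (zpowers x).normalizerMonoidHom_ker, index_ker, ← Nat.card_zpowers, ← IsCyclic.card_mulAut]
  exact card_subgroup_dvd_card _

namespace JF
variable (h : JF G) {f : G →* GL (Fin 112) (ZMod 2)} {γ : ℕ → G} (he : Em f γ DJ4.g 14)
include h
theorem sylz {l : ℕ} (hl : l.Prime) (n : ¬ l * l ∣ n4) {a : G} (o : orderOf a = l) : Syl l (zpowers a) ⊤ :=
  syl_z hl o (mem_top a) (h.nsq n ⊤)
theorem syl {l : ℕ} [hl : Fact l.Prime] (n : ¬ l * l ∣ n4) (c : ∃ a : G, orderOf a = l ∧ IsCoatom N(zpowers a)) (U : Sylow l G) :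
    IsCoatom N((U : Subgroup G)) := by
  obtain ⟨a, o, c⟩ := c
  obtain ⟨b, -, e⟩ := (h.sylz hl.out n o).sconj (syl_sylow_top U)
  rwa [← e, ← cj_norm, isCoatom_cj]
theorem c84 {H : Subgroup G} (c : #H = 21799895040 ∨ #H = 10239344640) {y : G} (hy : y ∈ H) (o : orderOf y = 7)
    (e : 2 ∣ #(H ⊓ C[y] : Subgroup G)) : #(H ⊓ C[y] : Subgroup G) = 84 ∨ #(H ⊓ C[y] : Subgroup G) = 280 := by
  obtain ⟨a, k, b, -, d⟩ := h.cond (d := (7, 840, 3)) (by decide) hy o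
  exact (by decide +kernel : ∀ m ∈ [21799895040, 10239344640], ∀ c ∈ dv 840, 2 ∣ c → ∀ k ∈ dv 3, JM.cond m 7 c k → c = 84 ∨ c = 280)
    _ (by simpa using c) _ a e k b d
theorem ex7 {M : Subgroup G} {y : G} (hy : y ∈ M) (o : orderOf y = 7) {R : ℕ → Prop} (e : R #(M ⊓ C[y] : Subgroup G)) :
    Ex #M 7 840 3 R :=
  have ⟨a, k, b, _, d⟩ := h.cond (d := (7, 840, 3)) (by decide) hy o
  ⟨_, a, e, k, b, d⟩
theorem cz {z : G} (o : orderOf z = 2) (c : #C[z] = 21799895040) {R : Subgroup G} (s : Syl 3 R ⊤) (n : N(R) ≤ C[z]) : IsCoatom C[z] := by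
  obtain ⟨y, hy, oy⟩ := exists_orderOf_eq_prime (H := C[z]) (p := 7) (by norm_num) (by rw [c]; decide)
  exact h.coatom c (P := fun m => m / 21799895040 % 3 = 1 ∧ Ex m 7 840 3 fun c => 84 ∣ c ∨ 280 ∣ c)
    (fun M hM => ⟨c ▸ idx_mod Nat.prime_three s (le_normalizer.trans n) hM (inf_le_right.trans n), h.ex7 (hM hy) oy
      ((h.c84 (.inl c) hy oy (o ▸ orderOf_dvd_card' ⟨mem_cent1_self z, mem_cent1_symm.1 hy⟩)).imp
        (·.symm.dvd.trans (card_dvd (inf_le_inf_right _ hM))) (·.symm.dvd.trans (card_dvd (inf_le_inf_right _ hM))))⟩)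
    [(11, 2), (23, 1), (29, 1), (31, 1), (37, 1), (43, 1)] (by decide +kernel)
theorem cA {A : Subgroup G} (c1 : #A = 2 ^ 10) (c2 : C(A) = A) (c : #N(A) = 10239344640)
    (ir : ∀ W ≤ A, N(A) ≤ N(W) → W = ⊥ ∨ W = A)
    (h6 : ∀ y : G, orderOf y = 7 → ∀ X ≤ C[y], #X = 420 → ∀ w ∈ X, w ^ 6 = 1 → w ^ 2 = 1 ∨ w ^ 3 = 1) : IsCoatom N(A) := by
  obtain ⟨y, hy, oy⟩ := exists_orderOf_eq_prime (H := N(A)) (p := 7) (by norm_num) (by rw [c]; decide)
  have z := (Nat.card_zpowers y).trans oy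
  have l : A ⊓ C[y] ≤ N(A) ⊓ C[y] := inf_le_inf_right _ le_normalizer
  have d1 := z ▸ c1 ▸ free_dvd (zpowers_le.2 hy) (norms_inf (zpowers_le.2 hy) ((zpowers_le.2 (mem_cent1_self y)).trans
    le_normalizer)) inf_le_left fun a ha u hu e => or_iff_not_imp_left.2 fun a1 => ⟨hu, by
      rw [← cent_zpowers, cent_eq_cent1_of_prime (by rw [z]; norm_num) ha a1]; exact mem_cent1.2 (mul_inv_eq_iff_eq_mul.1 e).symm⟩
  obtain ⟨k, k1, d2⟩ := (Nat.dvd_prime_pow Nat.prime_two).1 (c1 ▸ card_dvd (inf_le_left : A ⊓ C[y] ≤ A))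
  have d3 := card_dvd l
  rw [d2] at d1 d3
  have d4 := h.c84 (.inr c) hy oy ((dvd_pow_self 2 (by rintro rfl; omega)).trans d3)
  refine h.coatom c (P := fun m => m ≠ 10239344640 * 2 ∧ Ex m 7 840 3 fun c => (84 ∣ c ∨ 280 ∣ c) ∧ c ≠ 420)
    (fun M hM => ⟨fun e => ?_, h.ex7 (hM hy) oy ⟨d4.imp (· ▸ card_dvd (inf_le_inf_right _ hM))
      (· ▸ card_dvd (inf_le_inf_right _ hM)), fun e => ?_⟩⟩)
    [(2, 1), (3, 1), (11, 3), (23, 1), (29, 1), (37, 1), (43, 1)] (by decide +kernel)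
  · have i : N(A).relIndex M = 2 := by rw [← div_idx hM, e, c]
    have n : M ≤ N(N(A)) := (normal_subgroupOf_iff_le_normalizer hM).1 (normal_of_index_eq_two i)
    rw [relIndex_eq_one.2 fun m hm => mem_norm_of_cj_le ?_] at i
    · omega
    have n1 : N(A) ≤ N(cj m A) := by rw [← cj_norm, cj_of_mem_norm (n hm)]
    rcases ir _ inf_le_left (norms_inf le_rfl n1) with e | e
    · exact (cents_of_norms_disjoint (le_normalizer.trans n1) (cj_le_of_mem_norm (n hm) le_normalizer) (inf_comm A _ ▸ e)).trans c2.le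
    · exact (eq_of_le_of_card_ge (inf_eq_left.1 e) (card_cj m A).le).ge
  · have l1 := inf_le_inf_right C[y] hM
    have d5 := d4.resolve_right fun e1 => absurd (e ▸ e1 ▸ card_dvd l1) (by decide)
    obtain rfl : k = 1 := by rw [d5] at d3; interval_cases k <;> omega
    obtain ⟨⟨a, ha⟩, a1, a2⟩ := (Nat.card_eq_two_iff' 1).1 d2
    obtain ⟨r, hr, o⟩ := exists_orderOf_eq_prime (p := 3) (by norm_num) (d5 ▸ by decide : 3 ∣ #(N(A) ⊓ C[y] : Subgroup G))
    have a3 : a ≠ 1 := fun e => a1 (Subtype.ext e)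
    have c : Commute r a := mul_inv_eq_iff_eq_mul.1 (congrArg Subtype.val (a2 ⟨_, conj_mem_of_norm
      (norms_inf inf_le_left (inf_le_right.trans le_normalizer) hr) ha⟩ fun e => a3 (conj_eq_one_iff.1 (congrArg Subtype.val e))))
    have a4 : a ^ 2 = 1 := congrArg Subtype.val (d2 ▸ pow_card_eq_one' (x := (⟨a, ha⟩ : (A ⊓ C[y] : Subgroup G))))
    have r3 : r ^ 3 = 1 := o ▸ pow_orderOf_eq_one r
    rcases h6 y oy _ inf_le_right e _ (mul_mem (l1 hr) (l1 (l ha))) (by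
      rw [c.mul_pow, show 6 = 3 * 2 from rfl, pow_mul, r3, mul_comm, pow_mul, a4]; simp) with e | e
    · rw [c.mul_pow, a4, mul_one, ← orderOf_dvd_iff_pow_eq_one, o] at e; omega
    · rw [c.mul_pow, r3, pow_succ, a4, one_mul, one_mul] at e; exact a3 e
include he
theorem c11 (h5 : ∀ u : G, orderOf u = 5 → #N(zpowers u) ≤ 26880) (U : Sylow 11 G) : IsCoatom N((U : Subgroup G)) := by
  have := Fact.mk (by norm_num : Nat.Prime 11)
  obtain ⟨y, u, -, oy, ou, -, -, n, k⟩ := JM11.main he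
  obtain ⟨V, sV, e⟩ := (PiN.of_card this.out ((Nat.card_zpowers y).trans oy)).exists_syl le_top
  obtain ⟨b, -, e1⟩ := sV.sconj (syl_sylow_top U)
  obtain ⟨c1, c2, c3⟩ := h.ti V sV
  have l : N(zpowers y) ≤ N(V) := fun g hg => (c3 y (e (mem_zpowers y)) g (e (conj_mem_of_norm' hg (mem_zpowers y)))).resolve_left
    fun e => by simp [e] at oy
  replace c2 : #N(V) = 319440 := c2
  rw [← e1, ← cj_norm, isCoatom_cj]
  exact h.coatom c2 (P := fun m => m / 319440 % 1331 = 1 ∧ (m / 319440 % 5 = 1 ∨ 31 ∣ m))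
    (fun M hM => ⟨by simpa [inf_eq_right.2 hM, c1, c2] using h.idx sV le_rfl (le_normalizer.trans hM) (by omega),
      (k (h5 u ou) M (l.trans hM)).imp_left fun e => c2 ▸ idx_mod (by norm_num) (h.sylz (by norm_num) (by decide) ou)
        (zpowers_le.2 (l n)) hM (e.trans l)⟩)
    [(2, 17), (3, 2), (7, 1), (23, 1), (29, 1), (31, 1), (37, 1), (43, 1)] (by decide +kernel)
theorem c29 : ∃ a : G, orderOf a = 29 ∧ IsCoatom N(zpowers a) := by
  obtain ⟨a, g, oa, og, n, -, k⟩ := JM29.main he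
  have o : orderOf (g ^ 4) = 7 := by rw [orderOf_pow' _ (by decide), og]; rfl
  have c : #N(zpowers a) = 812 := (h.cn (29, 29, 28) (by decide) a oa).2
  refine ⟨a, oa, h.coatom c (P := fun m => m / 812 % 29 = 1 ∧ (JM.cond m 7 28 1 ∨ 31 ∣ m)) (fun M hM => ⟨c ▸ idx_mod (by norm_num)
    (h.sylz (by norm_num) (by decide) oa) le_normalizer hM inf_le_right, (k (h.cn (7, 840, 3) (by decide) _ o).2.le M
      (hM (le_normalizer (mem_zpowers a))) (hM n)).imp_left fun e => ?_⟩)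
    [(2, 19), (3, 3), (5, 1), (11, 3), (23, 1), (31, 1), (37, 1), (43, 1)] (by decide +kernel)⟩
  obtain ⟨-, k, -, c1, c2⟩ := h.cond (d := (7, 840, 3)) (by decide) (pow_mem (hM n) 4) o
  have e1 : zpowers g ≤ M ⊓ C[g ^ 4] := zpowers_le.2 ⟨hM n, cent1_le_cent1_pow g 4 (mem_cent1_self g)⟩
  have e2 := inf_le_inf_left M (cent1_le_norm_zpowers (g ^ 4))
  rw [e.antisymm (e1.trans e2)] at c1
  rw [(e2.trans e).antisymm e1, Nat.card_zpowers, og] at c1 c2
  obtain rfl : k = 1 := by omega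
  exact c2
theorem c43 : ∃ a : G, orderOf a = 43 ∧ IsCoatom N(zpowers a) := by
  obtain ⟨a, g, oa, og, n, -, k⟩ := JM43.main he
  have o : orderOf (g ^ 2) = 7 := by rw [orderOf_pow' _ (by decide), og]; rfl
  have c : #N(zpowers a) = 602 := (h.cn (43, 43, 14) (by decide) a oa).2
  exact ⟨a, oa, h.coatom c (P := fun m => m / 602 % 43 = 1 ∧ (m / 602 % 7 = 1 ∨ 23 ∣ m)) (fun M hM => ⟨c ▸ idx_mod (by norm_num)
    (h.sylz (by norm_num) (by decide) oa) le_normalizer hM inf_le_right, (k (h.cn (7, 840, 3) (by decide) _ o).2.le M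
      (hM (le_normalizer (mem_zpowers a))) (hM n)).imp_left fun e => c ▸ idx_mod (by norm_num)
        (h.sylz (by norm_num) (by decide) o) (zpowers_le.2 (pow_mem n 2)) hM (e.trans (zpowers_le.2 n))⟩)
    [(2, 20), (3, 3), (5, 1), (11, 3), (23, 1), (29, 1), (31, 1), (37, 1)] (by decide +kernel)⟩
theorem c37 (h3 : ∀ x : G, orderOf x = 3 → #C[x] ≤ 2661120) (h9 : ∀ x : G, ¬ 3 * 3 ∣ orderOf x) :
    ∃ a : G, orderOf a = 37 ∧ IsCoatom N(zpowers a) := by
  obtain ⟨a, g, oa, og, n, c1, k1, c2, k2⟩ := JM37.main he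
  have o : ∀ j, j ≠ 0 → orderOf (g ^ j) = 12 / Nat.gcd 12 j := fun j hj => by rw [orderOf_pow' _ hj, og]
  have ox : orderOf (g ^ 4) = 3 := o 4 (by decide)
  have z : ∀ j, j ≠ 0 → #(zpowers (g ^ j)) = 12 / Nat.gcd 12 j := fun j hj => (Nat.card_zpowers _).trans (o j hj)
  have zg := (Nat.card_zpowers g).trans og
  have g14 : g ^ 2 = (g ^ 4) ^ 2 * (g ^ 3) ^ 2 := by
    rw [← pow_mul, ← pow_mul, ← pow_add, ← pow_mod_orderOf g (_ + _), og]
  have tt : g ^ 6 * g ^ 6 = 1 := (pow_add g 6 6).symm.trans (og ▸ pow_orderOf_eq_one g :)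
  have l1 : C[g ^ 4] ⊓ C[g ^ 6] = C[g ^ 2] := le_antisymm (fun y hy => mem_cent1_symm.1 (g14 ▸ mul_mem
    (pow_mem (mem_cent1_symm.1 hy.1) 2) (pow_mul g 3 2 ▸ mem_cent1_symm.1 hy.2)))
    (le_inf (pow_mul g 2 2 ▸ cent1_le_cent1_pow _ 2) (pow_mul g 2 3 ▸ cent1_le_cent1_pow _ 3))
  have c3 := Nat.mul_le_mul_left #C[g ^ 2] (Nat.le_of_dvd two_pos ((aut_tot (g ^ 2)).trans (by rw [o 2 (by decide)]; decide)))
  have c4 := h3 _ ox
  have c : #N(zpowers a) = 444 := (h.cn (37, 37, 12) (by decide) a oa).2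
  rw [card_mul_relIndex (cent1_le_norm_zpowers _)] at c3
  rw [l1] at c2 k2
  refine ⟨a, oa, h.coatom c (P := fun m => m / 444 % 37 = 1 ∧ (43 ∣ m ∨ ¬ 3 * 3 ∣ m ∧ m.gcd (2 ^ 21) % 3 = 1 ∧ Ok (m / 3)))
    (fun M hM => ⟨c ▸ idx_mod (by norm_num) (h.sylz (by norm_num) (by decide) oa) le_normalizer hM inf_le_right,
      or_iff_not_imp_left.2 fun n43 => ?_⟩)
    [(2, 19), (3, 2), (5, 1), (7, 1), (11, 3), (23, 1), (29, 1), (31, 1), (43, 1)] (by decide +kernel)⟩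
  have gM := hM n
  have e := (k1 (by omega) M (hM (le_normalizer (mem_zpowers a))) gM).resolve_right n43
  have e' := (k2 (by omega) M (hM (le_normalizer (mem_zpowers a))) gM).resolve_left n43
  have nx := cent1_le_norm_zpowers (g ^ 4)
  have gx := cent1_le_cent1_pow g 4 (mem_cent1_self g)
  have gC : ∀ j, g ^ j ∈ M ⊓ C[g ^ 4] := fun j => pow_mem (mem_inf.2 ⟨gM, gx⟩) j
  have s2 : Syl 2 (zpowers (g ^ 3)) (M ⊓ N(zpowers (g ^ 4))) := syl_of_subnorm ((H20.J4.syl_card (k := 2) (m := 3) Nat.prime_two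
    (zpowers_le.2 (npow_mem_zpowers g 3)) (z 3 (by decide)) zg (by decide)).of_le (le_inf (zpowers_le.2 (inf_le_inf_left M nx (gC 3)))
      le_normalizer) fun y hy => e ⟨hy.1.1, mem_norm_of_cj_le (by
        obtain ⟨i, e1⟩ := conj_mem_of_norm hy.1.2 (mem_zpowers _)
        obtain ⟨j, e2⟩ := conj_mem_of_norm hy.2 (mem_zpowers _)
        rw [cj_zpowers, zpowers_le]
        exact ⟨4 * i + 3 * j, by rw [congrArg (y * · * y⁻¹) g14, ← conj_mul, ← conj_pow (i := 2), ← conj_pow (i := 2), ← e1, ← e2]; group⟩)⟩)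
  have K := npc_of_cyc s2 inferInstance
  have YC : M ⊓ N(zpowers (g ^ 4)) ≤ C[g ^ 4] := (s2.sup_compl K).ge.trans (sup_le (zpowers_le.2 (gC 3).2)
    (le_of_pi_of_relIndex (K.le.trans (inf_le_right.trans (cent_zpowers (g ^ 4) ▸ norm_le_norm_cent _))) nx
      (K.le.trans inf_le_right) K.pi ((PiN.prime_pow Nat.prime_two 1).dvd (aut_dvd Nat.prime_three ox)).compl_compl))
  have n9 : ¬ 3 * 3 ∣ #M := fun d => by
    have d1 : 3 * 3 ∣ #(M ⊓ N(zpowers (g ^ 4)) : Subgroup G) := by_contra fun d1 => absurd (z 4 (by decide) ▸ (syl_of_subnorm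
      (syl_z Nat.prime_three ox (inf_le_inf_left M nx (gC 4)) d1)).dvd (PiN.prime_pow Nat.prime_three 2) d) (by decide)
    obtain ⟨R, r1, r2⟩ := inv_syl_exists 3 ((zpowers_le.2 (inf_le_inf_left M nx (gC 6))).trans (Oc_norm {2}ᶜ _))
      (K.pi.coprime' (pg_zpowers tt)) (.inl (sol_zpowers _))
    have r3 := K.sub_syl (by simp) r1
    refine absurd (z 4 (by decide) ▸ (r3.dvd (PiN.prime_pow Nat.prime_three 2) d1).trans (card_dvd fun r hr => ?_)) (by decide)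
    have rM := (r3.le hr).1
    have w : g ^ 6 * (r⁻¹ * g ^ 6 * r) ∈ R := by
      simpa [inv_eq_of_mul_eq_one_right tt, mul_assoc] using mul_mem (conj_mem_of_norm (r2 (mem_zpowers _)) (inv_mem hr)) hr
    obtain ⟨k, e1⟩ := (r1.pi.elt w).exists_pow (orderOf_pos _).ne'
    exact (syl_z Nat.prime_three ox (npow_mem_zpowers g 4) (by rw [zg]; decide)).mem_of_normal (zpowers_le.2 (nx gx))
      (e ⟨rM, cent1_le_norm_zpowers _ (l1.le ⟨YC (r3.le hr), e' r (YC (r3.le hr)) (mul_mem (mul_mem (inv_mem rM) (gC 6).1) rM)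
        (orderOf_dvd_iff_pow_eq_one.1 (e1 ▸ pow_dvd_pow (n := 1) 3 (by_contra fun n => h9 _
          (e1 ▸ pow_dvd_pow (m := 2) 3 (by omega)))))⟩)⟩) (r1.pi.elt hr)
  obtain ⟨L, d1, d2⟩ := burn_sound h.card Nat.prime_three ox (syl_z Nat.prime_three ox (gC 4).1 n9) YC
  refine ⟨n9, ((d2 (2, 21) (by decide)).resolve_left (by decide)).trans ?_, by rw [← d1, Nat.mul_div_cancel _ three_pos]; exact h.ok L⟩
  rw [syl_gcd Nat.prime_two (s2.of_le (zpowers_le.2 (gC 3)) (inf_le_inf_left M nx)) (by rw [h.card]; decide), z 3 (by decide)]; rfl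
end JF

namespace S
variable [IsSimpleGroup G] {z p q : G} {Q N Q' : Subgroup G} {π μ : G → GPm} {g cq κ : ℕ → G} {e : ℕ}
  {φ : Equiv.Perm (Fin 5) →* G} (h : S6 z p Q N π g cq Q' q μ κ e φ)
include h
theorem cjz {l : ℕ} (hl : l.Prime) (n : ¬ l * l ∣ n4) {x y : G} (ox : orderOf x = l) (oy : orderOf y = l) :
    ∃ b, cj b (zpowers y) = zpowers x := prime_cj hl (h.card ▸ n) ((Nat.card_zpowers x).trans ox) oy
theorem jf : JF G := by
  refine ⟨h.card, fun d hd x o => ?_, fun V sV => ?_⟩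
  · simp only [CN, List.mem_cons, List.not_mem_nil, or_false] at hd
    rcases hd with rfl | rfl | rfl | rfl | rfl | rfl
    iterate 4 exact h.big (_, _) (by simp) x o
    · exact h.x23 o
    obtain ⟨b, e1⟩ := cjz h (by norm_num) (by decide) o h.o_tau
    rw [← cent_zpowers, ← e1, ← cj_cent, ← cj_norm, card_cj, card_cj, cent_zpowers, ← h.c7]
    exact ⟨h.card7, h.n7⟩
  obtain ⟨U, x, sU, cU, nU, c1, c2, xU, ox, cx, -⟩ := h.syl11
  have oy := h.oy
  generalize evA (hl g cq) X11 = y at *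
  have hp : Nat.Prime 11 := by norm_num
  have s := sU.of_le le_normalizer le_top
  have n := (cent1_le_norm_zpowers y).trans nU.ge
  have cy := (Nat.card_zpowers y).trans oy
  have a : U ≤ C[y] := inf_eq_left.1 (eq_of_le_of_card_ge inf_le_left (cU ▸ Nat.le_of_dvd (card_pos _)
    ((s.inf_of_norm' n n).dvd (PiN.prime_pow hp 3) (by rw [c1]; decide))))
  have u2 : zpowers y ≤ U := s.le_of_normal le_rfl ((zpowers_le.2 (mem_cent1_self y)).trans n) (PiN.of_card hp cy)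
  have k0 : ∀ {u}, u ∈ zpowers y → #C[u] ≠ 242 := fun hu e => by
    have := card_le (cent1_le_cent1_of_mem_zpowers hu); omega
  have cc : ∀ b u : G, #C[b * u * b⁻¹] = #C[u] := fun b u => by rw [← cj_cent1, card_cj]
  have k : cl N(zpowers y) x = (U : Set G) \ zpowers y := Set.eq_of_subset_of_ncard_le (fun _ ⟨a, ha, e1⟩ =>
    ⟨e1 ▸ conj_mem_of_norm (nU.ge ha) xU, fun e2 => k0 e2 (e1 ▸ (cc a x).trans cx)⟩) (by
    have d1 := cl_card N(zpowers y) x
    have d2 := Nat.mul_le_mul_left (cl N(zpowers y) x).ncard (cx ▸ card_le (inf_le_right : N(zpowers y) ⊓ C[x] ≤ _))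
    rw [Set.ncard_sdiff u2, ← Nat.card_coe_set_eq (zpowers y : Set G), ← Nat.card_coe_set_eq (U : Set G),
      SetLike.coe_sort_coe, SetLike.coe_sort_coe, cy, cU]
    omega)
  have k1 : ∀ u ∈ U, u ∈ zpowers y ∨ #C[u] = 242 := fun u hu => or_iff_not_imp_left.2 fun n =>
    have ⟨a, _, e⟩ := k.ge ⟨hu, n⟩; e ▸ (cc a x).trans cx
  have k3 : ∀ u ∈ U, ∀ g, g⁻¹ * u * g ∈ U → u = 1 ∨ g ∈ N(U) := fun u hu g e => or_iff_not_imp_left.2 fun u1 => by
    have cg := fun u => cc g⁻¹ u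
    simp only [inv_inv] at cg
    refine nU ▸ mem_norm_of_le_cj (zpowers_le.2 (mem_cj.2 ((k1 _ ?_).resolve_right fun e => k0 (mem_zpowers y) ((cg y).symm.trans e))))
    rcases k1 u hu with b | b
    · exact mem_cj.1 (zpowers_le.2 (mem_cj.2 e) ((eq_zpowers_of_prime (cy ▸ hp) b u1).ge (mem_zpowers y)))
    have d1 := card_lt (lt_of_le_of_ne (le_inf u2 (zpowers_le.2 (mem_cent1_symm.1 (a e)))) fun e1 =>
      k0 (e1.ge ⟨e, mem_cent1_self _⟩) ((cg u).trans b))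
    obtain ⟨j, j1, d2⟩ := (Nat.dvd_prime_pow hp).1 (cU ▸ card_dvd (inf_le_left : U ⊓ C[g⁻¹ * u * g] ≤ U))
    have d3 := card_inf_mul_relIndex U C[g⁻¹ * u * g]
    rw [cg, b, d2] at d3
    rw [cy, d2] at d1
    have d4 : g⁻¹ * y * g * (g⁻¹ * y * g) ∈ U := mul_self_mem_of_index_two (H := U.subgroupOf C[g⁻¹ * u * g])
      (show U.relIndex _ = 2 by interval_cases j <;> omega) ⟨_, mem_cj.1 (by simpa [cj_cent1, mul_assoc] using mem_cent1_symm.1 (a hu))⟩
    convert pow_mem d4 6 using 1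
    rw [← sq, ← pow_mul, ← pow_mod_orderOf, show orderOf (g⁻¹ * y * g) = 11 by simpa [oy] using orderOf_conj' g⁻¹ y, pow_one]
  obtain ⟨b, -, rfl⟩ := sU.sconj sV
  exact ⟨(card_cj b U).trans cU, by rw [← cj_norm, card_cj, nU, c2]; rfl, fun u hu g e =>
    (k3 _ (mem_cj.1 hu) (b⁻¹ * g * b) (by simpa [mul_assoc] using mem_cj.1 e)).imp (by simpa [mul_assoc] using
      (conj_eq_one_iff (a := b⁻¹)).1) fun e => cj_norm b U ▸ mem_cj.2 e⟩
omit [IsSimpleGroup G] in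
theorem h3 (x : G) (o : orderOf x = 3) : #C[x] ≤ 2661120 := by
  obtain ⟨b, rfl⟩ := isConj_iff.1 (h.cls3 (o ▸ pow_orderOf_eq_one x) fun e => by simp [e] at o)
  rw [← cj_cent1, card_cj, h.Cp, card_eq_card_quotient_mul_card_subgroup h.xi.ker,
    Nat.card_congr (QuotientGroup.quotientKerEquivOfSurjective _ h.xi_surj).toEquiv, h.xi_ker,
    card_subgroupOf' (zpowers_le.2 h.zpK), Nat.card_zpowers, h.o6, H15.MM22.card]
theorem h5 (u : G) (o : orderOf u = 5) : #N(zpowers u) ≤ 26880 := by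
  obtain ⟨b, e⟩ := cjz h (by norm_num) (by decide) o h.o_f
  rw [← e, ← cj_norm, card_cj, h.n5]
theorem h6 (y : G) (o : orderOf y = 7) (X : Subgroup G) (l : X ≤ C[y]) (c : #X = 420) (w : G) (hw : w ∈ X) (e : w ^ 6 = 1) :
    w ^ 2 = 1 ∨ w ^ 3 = 1 := by
  obtain ⟨b, e1⟩ := cjz h (by norm_num) (by decide) h.o_tau o
  replace l := cj_mono b l
  rw [← cent_zpowers, cj_cent, e1, cent_zpowers] at l
  rw [← conj_eq_one_iff (a := b), ← conj_pow] at e
  rw [← conj_eq_one_iff (a := b), ← conj_eq_one_iff (a := b) (b := w ^ 3), ← conj_pow, ← conj_pow]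
  rw [← conj_mem_cj (g := b)] at hw
  rw [← card_cj b] at c
  generalize cj b X = X at *
  generalize b * w * b⁻¹ = w at *
  have i := card_mul_relIndex l
  have t7 := h.o_tau ▸ pow_orderOf_eq_one (wds κ TV 3)
  rw [← h.c7, h.card7, c, h.c7] at i
  obtain ⟨a, ha, _, ⟨σ, rfl⟩, rfl⟩ := (mem_sup_of_norm (h.I_tau.trans (cent1_le_norm_zpowers _))).1 (h.c7.ge (l hw))
  have e2 : a * φ σ = φ (σ ^ 7) := by
    rw [← mul_one (a * _), ← e, ← pow_succ', (show Commute a (φ σ) from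
      (mem_cent1.1 (cent1_le_cent1_of_mem_zpowers ha (h.I_tau ⟨σ, rfl⟩))).symm).mul_pow,
      orderOf_dvd_iff_pow_eq_one.1 ((orderOf_dvd_of_mem_zpowers ha).trans h.o_tau.dvd), one_mul, map_pow]
  have i1 : (X.comap φ).index = 2 := by
    have := relIndex_le_of_le_right (H := X) h.I_tau (by omega)
    have := relIndex_pos X φ.range
    have : X.relIndex φ.range ≠ 1 := fun e => by
      have := card_le (h.c7.ge.trans (sup_le (zpowers_le.2 ?_) (relIndex_eq_one.1 e)))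
      · rw [← h.c7, h.card7] at this; omega
      convert pow_mem (show wds κ TV 3 * wds κ TV 3 ∈ X from mul_self_mem_of_index_two (H := X.subgroupOf C[wds κ TV 3])
        (show X.relIndex _ = 2 by omega) ⟨_, mem_cent1_self _⟩) 4 using 1
      rw [← sq, ← pow_mul, pow_succ, t7, one_mul]
    rw [index_comap]; omega
  rw [e2] at hw e ⊢
  simp only [← map_pow, map_eq_one_iff φ h.finj] at e ⊢
  exact (by decide +kernel : ∀ ρ : Equiv.Perm (Fin 5), Equiv.Perm.sign ρ = 1 → ρ ^ 6 = 1 → ρ ^ 2 = 1 ∨ ρ ^ 3 = 1) _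
    ((Equiv.Perm.eq_alternatingGroup_of_index_eq_two i1).le hw) e
theorem em : ∃ f : G →* GL (Fin 112) (ZMod 2), ∃ γ, Em f γ DJ4.g 14 :=
  have ⟨i⟩ := h.isoJ
  have ⟨f, f1, f2⟩ := J4d.emb
  ⟨f.comp i.toMonoidHom, fun k => i.symm (J4d.γ k), f1.comp i.injective, fun k hk => by simpa using f2 k hk⟩
end S

end H16.JM
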