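import Cfsg.Agent.H16.JM2

/-! Computation kit: covers with two primes, covers by conjugacy classes. -/

namespace H16.JM

open Subgroup Matrix DC

variable {G : Type*} [Group G] {r n p : ℕ}

/-- conjugates of the letters `< m` by the letter `m` -/
noncomputable def nQ (m : ℕ) (W : List (List ℕ)) : List (List ℕ × List ℕ) := (List.range m).map fun i => ([i, m], m :: nth [] W i)

theorem nQ_norm [Finite G] {δ : ℕ → G} {m : ℕ} {W : List (List ℕ)} (h : ∀ d ∈ nQ m W, evA δ d.1 = evA δ d.2)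
    (e : allL (ltAll m) W = true) : δ m ∈ normalizer (gen δ m : Set G) :=
  mem_normalizer_fintype fun _ hy => (gen_le (A := (gen δ m).comap (MulAut.conj (δ m)).toMonoidHom)).2 (fun i hi => by
    have := h _ (List.mem_map_of_mem (List.mem_range.2 hi))
    simp only [evA_cons, evA_nil, one_mul] at this
    show δ m * δ i * (δ m)⁻¹ ∈ gen δ m
    rw [this, mul_inv_cancel_right]
    exact evA_mem_gen δ (nth_lt e i)) hy

theorem rels_of {δ : ℕ → G} {Rl : List (List ℕ)} (h : ∀ d ∈ Rl.map (·, []), evA δ d.1 = evA δ d.2) : Rels δ Rl :=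
  fun _ hr => h _ (List.mem_map_of_mem hr)

theorem wds_gen (δ : ℕ → G) {V : List (List ℕ)} {m A : ℕ} (h : ∀ k < A, ltAll m (nth [] V k) = 0) :
    ∀ k < A, wds δ V k ∈ gen δ m := fun k hk => evA_mem_gen δ (ltAll_zero (h k hk))

/-- pairs of inverse letters -/
noncomputable def iP (a b : ℕ) (iv : List ℕ) : List (List ℕ × List ℕ) := (List.range b).map fun k =>
  if a ≤ k then ([nth 0 iv k, k], []) else ([], [])

theorem iP_eq {δ : ℕ → G} {a b : ℕ} {iv : List ℕ} (h : ∀ d ∈ iP a b iv, evA δ d.1 = evA δ d.2) (k : ℕ) (h1 : a ≤ k)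
    (h2 : k < b) : δ (nth 0 iv k) = (δ k)⁻¹ := by
  have := h _ (List.mem_map_of_mem (List.mem_range.2 h2))
  rw [if_pos h1] at this
  exact eq_inv_of_mul_eq_one_right (by simpa using this)

theorem lift2 {M Y Z B : Subgroup G} (h : B ≤ M) (h1 : ∀ y ∈ M ⊓ Y, ∃ b ∈ B, y * b⁻¹ ∈ Z) (h2 : M ⊓ Z ≤ B) : M ⊓ Y ≤ B :=
  fun y hy => have ⟨b, hb, e⟩ := h1 y hy
  inv_mul_cancel_right y b ▸ mul_mem (h2 ⟨M.mul_mem hy.1 (inv_mem (h hb)), e⟩) hb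

namespace Cv

/-- other witnesses -/
def alt (c : Cv) (B : List ℕ) (W : List (List ℕ × List ℕ)) : Cv := { c with B := B, Wt := W }

variable {c : Cv} {q : FP n n p} {q₁ : FP r n p} {f : G →* GL (_root_.Fin n) (ZMod p)} {δ : ℕ → G}
  {g : ℕ → GL (_root_.Fin n) (ZMod p)} {C : List ℕ}

theorem alt_up {B : List ℕ} {W : List (List ℕ × List ℕ)} (e : c.Wt.map (·.1) = W.map (·.1)) {mk : List ℕ → List ℕ} {a : ℕ}
    (h : Up (c.ent mk q₁ C) c.E a) : Up ((c.alt B W).ent mk q₁ C) (c.alt B W).E a := fun d hd => by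
  have k : ∀ (L : List (List ℕ × List ℕ)) j, (nth ([], []) L j).1 = nth [] (L.map (·.1)) j := fun L => by
    induction L with
    | nil => exact fun _ => rfl
    | cons x L ih => exact fun j => by cases j <;> simp [ih]
  have : (c.alt B W).wd d = c.wd d := by rw [wd, wd, k, k, e]; rfl
  rw [ent, this]
  exact h d hd

variable (h : q.OK) (hg : q.RpL g C c.K) (he : Em f δ g c.K)
include h hg he

theorem cover₂ [Finite G] (h₁ : q₁.OK) {l l' a b : ℕ} (hl : l.Prime) (hl' : l'.Prime) {B' : List ℕ} {W : List (List ℕ × List ℕ)}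
    (hE : Up (c.ent id q₁ C) c.E a) (hR : Up (c.rep id 1 q C) c.Wt b) (hR' : Up ((c.alt B' W).rep id 1 q C) W b)
    (e : (c.E.length = a ∧ c.Wt.length = b) ∧ (q.w = q₁.w ∧ 0 < r ∧ q₁.red c.v = c.v) ∧
      (c.A ≤ c.K ∧ ex c.B = l + 1) ∧ (c.K₁ ≤ c.T ∧ c.T < c.A) ∧ rowF q₁ (apR q₁ C [c.T] c.v) 0 = rowF q₁ c.v 0 ∧
      (c.E.map (·.2.2.2)).IsChain (· < ·)) (e' : c.Wt.map (·.1) = W.map (·.1) ∧ W.length = b ∧ ex B' = l' + 1)
    {Y : Subgroup G} (hY : ∀ k, c.K₁ ≤ k → k < c.K → δ k ∈ Y) :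
    a * orderOf (δ c.T) ≤ Nat.card Y ∧ (Nat.card Y ≤ a * orderOf (δ c.T) → ∀ B M : Subgroup G, B ≤ M →
      (∀ k, c.K₁ ≤ k → k < c.A → δ k ∈ B) → (∀ k < c.K₁, δ k ∈ M) → M ⊓ Y ≤ B ∨ l ∣ Nat.card M ∧ l' ∣ Nat.card M) :=
  have a1 := cover h hg he h₁ hl hE hR e hY
  ⟨a1.1, fun a2 B M h1 h2 h3 => or_and_left.2 ⟨a1.2 a2 B M h1 h2 h3, (cover (c := c.alt B' W) h hg he h₁ hl' (alt_up e'.1 hE) hR'
    ⟨⟨e.1.1, e'.2.1⟩, e.2.1, ⟨e.2.2.1.1, e'.2.2⟩, e.2.2.2⟩ hY).2 a2 B M h1 h2 h3⟩⟩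

/-- the conjugates of the letter `T` -/
theorem clz [Finite G] (h₁ : q₁.OK) {l a b : ℕ} (hl : l.Prime) (hE : Up (c.ent c.cj q₁ C) c.E a)
    (hR : Up (c.rep c.cj 1 q C) c.Wt b) (e : (c.E.length = a ∧ c.Wt.length = b) ∧ (q.w = q₁.w ∧ 0 < r ∧ q₁.red c.v = c.v) ∧
      (c.A ≤ c.K ∧ ex c.B = l + 1) ∧ (c.T < c.A ∧ ∀ k < c.K, nth 0 c.iv k < c.K) ∧ (∀ d ∈ c.E, d.2.2.1 = []) ∧
      (c.E.map (·.2.2.2)).IsChain (· < ·)) {Y : Subgroup G}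
    (hY : ∀ k, c.K₁ ≤ k → k < c.K → δ k ∈ Y) (hI : ∀ k, c.K₁ ≤ k → k < c.K → δ (nth 0 c.iv k) = (δ k)⁻¹) :
    a * Nat.card (Y ⊓ centralizer {δ c.T} : Subgroup G) ≤ Nat.card Y ∧
      (Nat.card Y ≤ a * Nat.card (Y ⊓ centralizer {δ c.T} : Subgroup G) → ∀ B M : Subgroup G, B ≤ M →
        (∀ k, c.K₁ ≤ k → k < c.A → δ k ∈ B) → (∀ k < c.K₁, δ k ∈ M) →
        (∀ y ∈ M ⊓ Y, ∃ b ∈ B, y * b⁻¹ ∈ Y ⊓ centralizer {δ c.T}) ∨ l ∣ Nat.card M) := by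
  obtain ⟨⟨e1, e2⟩, e3, e4, e5, e6, e7⟩ := e
  have J : ∀ W, (∀ k ∈ W, c.K₁ ≤ k ∧ k < c.K) → ∀ k ∈ c.cj W, k < c.K := fun W hW k hk => by
    simp only [cj, List.mem_append, List.mem_cons, List.mem_reverse, List.mem_map] at hk
    rcases hk with a | rfl | ⟨j, a, rfl⟩
    exacts [(hW k a).2, e5.1.trans_le e4.1, e5.2 j (hW j a).2]
  have J' : ∀ W, (∀ k ∈ W, c.K₁ ≤ k ∧ k < c.K) → evA δ (c.cj W) = (evA δ W)⁻¹ * δ c.T * evA δ W := fun W hW => by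
    rw [cj, evA_append, evA_cons, evA_inv fun k hk => hI k (hW k hk).1 (hW k hk).2]
  have R := rep_sound h hg he hl e4 J (hR.all e2)
  have S := fun d hd => ent_sound (hE.all e1 d hd)
  have L := fun d hd => wd_lt e4.1 (S d hd).1 (S d hd).2.1 (R _).1
  have k : ∀ {x y : G}, x * y⁻¹ ∈ centralizer {δ c.T} → x⁻¹ * δ c.T * x = y⁻¹ * δ c.T * y := fun {x y} a => by
    have := mem_centralizer_singleton_iff.1 a
    rw [← mul_assoc, eq_mul_inv_iff_mul_eq] at this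
    rw [mul_assoc, ← this]; group
  obtain ⟨a1, a2⟩ := cosets (inf_le_left (b := centralizer {δ c.T})) (w := fun d => evA δ (c.wd d))
    (fun d hd => evA_mem δ fun k hk => hY k (L d hd k hk).1 (L d hd k hk).2) e7 fun d hd d' hd' a =>
      (S d hd).2.2.symm.trans ((hx_eq hg he h₁ e3 (J _ (L d hd)) (J _ (L d' hd')) (by
        rw [J' _ (L d hd), J' _ (L d' hd'), k a.2, mul_inv_cancel, map_one]; exact one_mem _)).trans (S d' hd').2.2)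
  rw [e1] at a1 a2
  refine ⟨a1, fun a3 B M h1 h2 h3 => or_iff_not_imp_right.2 fun h4 y hy => ?_⟩
  have h5 : ∀ k < c.A, δ k ∈ M := fun k hk => (lt_or_ge k c.K₁).elim (h3 k) fun b => h1 (h2 k b hk)
  obtain ⟨d, hd, a4⟩ := a2 a3 y hy.2
  have a5 := evA_mem δ fun k hk => h2 k ((S d hd).1 k hk).1 ((S d hd).1 k hk).2
  have a8 := k a4.2
  simp only [wd, evA_append, e6 d hd, evA_nil, one_mul] at a4 a8
  rcases (R d.2.1).2 with a7 | a7 | a7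
  · exact ⟨_, a5, by rwa [a7, evA_nil, one_mul] at a4⟩
  · exact absurd a7.1 one_ne_zero
  refine (h4 (a7 M h5 ?_)).elim
  have a6 := M.mul_mem (M.mul_mem (M.inv_mem hy.1) (h5 _ e5.1)) hy.1
  rw [J' _ (R _).1]
  rw [a8] at a6
  simpa [mul_assoc] using mul_mem (mul_mem (h1 a5) a6) (inv_mem (h1 a5))

theorem clz₂ [Finite G] (h₁ : q₁.OK) {l l' a b : ℕ} (hl : l.Prime) (hl' : l'.Prime) {B' : List ℕ} {W : List (List ℕ × List ℕ)}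
    (hE : Up (c.ent c.cj q₁ C) c.E a) (hR : Up (c.rep c.cj 1 q C) c.Wt b) (hR' : Up ((c.alt B' W).rep c.cj 1 q C) W b)
    (e : (c.E.length = a ∧ c.Wt.length = b) ∧ (q.w = q₁.w ∧ 0 < r ∧ q₁.red c.v = c.v) ∧
      (c.A ≤ c.K ∧ ex c.B = l + 1) ∧ (c.T < c.A ∧ ∀ k < c.K, nth 0 c.iv k < c.K) ∧ (∀ d ∈ c.E, d.2.2.1 = []) ∧
      (c.E.map (·.2.2.2)).IsChain (· < ·)) (e' : c.Wt.map (·.1) = W.map (·.1) ∧ W.length = b ∧ ex B' = l' + 1) {Y : Subgroup G}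
    (hY : ∀ k, c.K₁ ≤ k → k < c.K → δ k ∈ Y) (hI : ∀ k, c.K₁ ≤ k → k < c.K → δ (nth 0 c.iv k) = (δ k)⁻¹) {m : ℕ} {B M : Subgroup G}
    (h1 : B ≤ M) (h2 : ∀ k, c.K₁ ≤ k → k < c.A → δ k ∈ B) (h3 : ∀ k < c.K₁, δ k ∈ M) (h4 : Nat.card Y ≤ a * m) (h5 : 0 < a)
    (h6 : m ≤ Nat.card (Y ⊓ centralizer {δ c.T} : Subgroup G) ∧ (Nat.card (Y ⊓ centralizer {δ c.T} : Subgroup G) ≤ m →
      M ⊓ (Y ⊓ centralizer {δ c.T}) ≤ B ∨ l ∣ Nat.card M ∧ l' ∣ Nat.card M)) :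
    M ⊓ Y ≤ B ∨ l ∣ Nat.card M ∧ l' ∣ Nat.card M := by
  have a1 := clz h hg he h₁ hl hE hR e hY hI
  have a2 := h4.trans (Nat.mul_le_mul_left a h6.1)
  refine or_iff_not_imp_right.2 fun a3 => lift2 h1 ((or_and_left.2 ⟨a1.2 a2 B M h1 h2 h3, (clz (c := c.alt B' W) h hg he h₁ hl'
    (alt_up e'.1 hE) hR' ⟨⟨e.1.1, e'.2.1⟩, e.2.1, ⟨e.2.2.1.1, e'.2.2⟩, e.2.2.2⟩ hY hI).2 a2 B M h1 h2 h3⟩).resolve_right a3)
    ((h6.2 (Nat.le_of_mul_le_mul_left (a1.1.trans h4) h5)).resolve_right a3)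

end Cv

end H16.JM
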