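import Cfsg.Agent.H16.JM3

/-! More on the orders of the subgroups of `J₄`. -/

set_option autoImplicit false
open Subgroup H19 H0 H20.J4
namespace H16.JM
variable {G : Type*} [Group G] [Finite G]
local notation "cj" => H19.cj

theorem ext {K : Subgroup G} {s : G} {p : ℕ} (hp : p.Prime) (n : s ∈ N(K)) (o : orderOf s = p) (h : s ∉ K) :
    #(K ⊔ zpowers s : Subgroup G) = #K * p ∧ (K.subgroupOf (K ⊔ zpowers s)).Normal ∧ (K.subgroupOf (K ⊔ zpowers s)).index = p := by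
  have z := (Nat.card_zpowers s).trans o
  have c := card_sup_of_disjoint (zpowers_le.2 n) (inf_comm K _ ▸ inf_eq_bot_of_prime (z ▸ hp) (mt zpowers_le.1 h))
  rw [z] at c
  exact ⟨c, (normal_subgroupOf_iff_le_normalizer le_sup_left).2 (sup_le le_normalizer (zpowers_le.2 n)),
    Nat.eq_of_mul_eq_mul_left (card_pos K) ((card_mul_relIndex le_sup_left).trans c)⟩
theorem idx_mod' {p : ℕ} {P H M : Subgroup G} (hp : p.Prime) (h : Syl p P H) (h2 : H ≤ M) (h3 : M ⊓ N(P) ≤ H) :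
    #M / #H % p = 1 := by
  have a := syl_mod hp (h.syl_of_norm_le (h.le.trans h2) h3)
  rw [← inf_relIndex_left, ← relIndex_mul_relIndex _ H M h3 h2, ← inf_relIndex_left, ← inf_assoc, inf_eq_left.2 h2,
    inf_relIndex_left, Nat.mul_mod, syl_mod hp h, Nat.mod_eq_of_lt hp.one_lt, one_mul, Nat.mod_mod] at a
  rw [div_idx h2, a]
theorem card_norm {x : G} {l c : ℕ} (hl : l.Prime) (o : orderOf x = l) (h : #C[x] ≤ c) : #N(zpowers x) ≤ c * (l - 1) := by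
  rw [← card_mul_relIndex (cent1_le_norm_zpowers x)]
  exact Nat.mul_le_mul h (Nat.le_of_dvd (Nat.sub_pos_of_lt hl.one_lt) (Nat.totient_prime hl ▸ o ▸ aut_tot x))

abbrev mx (m l e : ℕ) : Prop := l ∣ m → m = l * e ∨ m = n4 ∨ ∃ k ∈ dv e, k ≠ e ∧ cond m l l k
abbrev Mx (m : ℕ) : Prop := m * 2 ≠ n4 ∧ mx m 37 12 ∧ mx m 43 14
abbrev d11 (m d : ℕ) : Prop := m.gcd 1331 * d ∣ m ∧ m / (m.gcd 1331 * d) % m.gcd 1331 = 1

namespace JF
variable (h : JF G)
include h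
theorem cond' {l e : ℕ} (hd : (l, l, e) ∈ CN) {M : Subgroup G} {x : G} (hx : x ∈ M) (o : orderOf x = l) :
    ∃ k ∈ dv e, #(M ⊓ N(zpowers x) : Subgroup G) = l * k ∧ JM.cond #M l l k := by
  obtain ⟨a, k, b, c, d⟩ := h.cond hd hx o
  rw [Nat.dvd_antisymm (of_decide_eq_true (List.mem_filter.1 a).2) d.1] at c d
  exact ⟨k, b, c.symm, d⟩
theorem nle {l e : ℕ} (hd : (l, l, e) ∈ CN) {M : Subgroup G} {x : G} (o : orderOf x = l)
    (c : #(M ⊓ N(zpowers x) : Subgroup G) = l * e) : N(zpowers x) ≤ M :=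
  inf_eq_right.1 (eq_of_le_of_card_ge inf_le_right ((h.cn _ hd x o).2.trans c.symm).le)
theorem nin {l e n p : ℕ} (hd : (l, l, e) ∈ CN) {K : Subgroup G} {x s : G} (hx : x ∈ K) (o : orderOf x = l) (c : #K = n)
    (hs : s ∈ N(zpowers x)) (os : orderOf s = p) (a : ∀ k ∈ dv e, JM.cond n l l k → ¬ p ∣ l * k) : s ∉ K := fun b =>
  have ⟨k, k1, k2, k3⟩ := h.cond' hd hx o
  a k k1 (c ▸ k3) (k2 ▸ os ▸ orderOf_dvd_card' ⟨b, hs⟩)
theorem mx {l e : ℕ} (hd : (l, l, e) ∈ CN) (c : ∃ a : G, orderOf a = l ∧ IsCoatom N(zpowers a)) (M : Subgroup G) : mx #M l e := by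
  obtain ⟨hl, h2⟩ := (by decide +kernel : ∀ d ∈ CN, d.1.Prime ∧ ¬ d.1 * d.1 ∣ n4) _ hd
  obtain ⟨a, oa, c⟩ := c
  intro d
  obtain ⟨x, hx, o⟩ := exists_orderOf_eq_prime hl d
  obtain ⟨k, k1, k2, k3⟩ := h.cond' hd hx o
  obtain ⟨b, -, e1⟩ := (h.sylz hl h2 oa).sconj (h.sylz hl h2 o)
  rw [← isCoatom_cj (g := b), cj_norm, e1] at c
  refine or_iff_not_imp_left.2 fun n1 => or_iff_not_imp_left.2 fun n2 => ⟨k, k1, fun e => ?_, k3⟩
  rcases (h.nle hd o (e ▸ k2)).eq_or_lt with e | e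
  · exact n1 (e ▸ (h.cn _ hd x o).2)
  · exact n2 (by rw [c.2 M e, card_top, h.card])
theorem d11 {V X : Subgroup G} (sV : Syl 11 V ⊤) {a : G} (ha : a ∈ V) (o : orderOf a = 11) (hX : a ∈ X) :
    V.relIndex (X ⊓ N(V)) ∈ dv 240 ∧ d11 #X (V.relIndex (X ⊓ N(V))) := by
  have hp : Nat.Prime 11 := by norm_num
  obtain ⟨u1, u2, u4⟩ := h.ti V sV
  obtain ⟨P, hP, e0⟩ := (PiN.of_card hp ((Nat.card_zpowers a).trans o)).exists_syl (zpowers_le.2 hX)
  obtain ⟨V', sV', e⟩ := hP.pi.exists_syl le_top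
  obtain ⟨g, -, rfl⟩ := sV.sconj sV'
  have a1 : a ≠ 1 := fun e => by simp [e] at o
  rw [cj_of_mem_norm ((u4 a ha g (mem_cj.1 (e (e0 (mem_zpowers a))))).resolve_left a1)] at e
  have g := syl_gcd (e := 3) hp hP (by rw [h.card]; decide)
  have e1 : V ⊓ (X ⊓ N(V)) = P := hP.max (le_inf e (le_inf hP.le (e.trans le_normalizer))) (inf_le_right.trans inf_le_left)
    (sV.pi.infl _)
  have c := card_inf_mul_relIndex V (X ⊓ N(V))
  rw [← u1, ← card_mul_relIndex (le_normalizer (H := V)), Nat.mul_right_inj (card_ne_zero V)] at u2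
  rw [JM.d11, show 1331 = 11 ^ 3 from rfl, g]
  rw [e1] at c
  exact ⟨mem_dv ((relIndex_dvd_of_norm (K := X ⊓ _) inf_le_right le_normalizer inf_le_right).trans u2.dvd) (by decide),
    c.dvd.trans (card_dvd inf_le_left), c ▸ h.idx sV e hP.le fun e => a1 (card_eq_one.1 e ▸ e0 (mem_zpowers a) :)⟩
theorem e11 {K H : Subgroup G} {k n e : ℕ} (l : K ≤ H) (c1 : #K = k) (c2 : #H = n)
    (a : 11 ∣ k ∧ ∀ d ∈ dv 240, JM.d11 k d → ∀ d' ∈ dv 240, d ∣ d' → JM.d11 n d' → e ∣ d') (M : Subgroup G) (hM : H ≤ M) :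
    ∃ d ∈ dv 240, e ∣ d ∧ JM.d11 #M d := by
  obtain ⟨x, hx, o⟩ := exists_orderOf_eq_prime (by norm_num) (c1 ▸ a.1)
  obtain ⟨V, sV, e0⟩ := (PiN.of_card (by norm_num) ((Nat.card_zpowers x).trans o)).exists_syl le_top
  have d := fun X => h.d11 (X := X) sV (e0 (mem_zpowers x)) o
  have m : ∀ {X Y : Subgroup G}, X ≤ Y → V.relIndex (X ⊓ N(V)) ∣ V.relIndex (Y ⊓ N(V)) := fun {X Y} l => by
    rw [← relIndex_sup_of_norm (B := Y ⊓ _) inf_le_right]
    exact relIndex_dvd_of_norm inf_le_right le_sup_left ((inf_le_inf_right _ l).trans le_sup_right)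
  exact ⟨_, (d M (hM (l hx))).1, (a.2 _ (d K hx).1 (c1 ▸ (d K hx).2) _ (d H (l hx)).1 (m l) (c2 ▸ (d H (l hx)).2)).trans (m hM),
    (d M (hM (l hx))).2⟩
end JF

/-- further properties of `J₄` -/
structure JG (G : Type*) [Group G] : Prop extends JF G where
  hm : ∀ M : Subgroup G, Mx #M
  h3 : ∀ x : G, orderOf x = 3 → #C[x] ≤ 2661120
  h5 : ∀ u : G, orderOf u = 5 → #N(zpowers u) ≤ 26880
  h11 : ∀ {b y u : G}, orderOf b = 11 → orderOf y = 11 → orderOf u = 11 → y ∈ C[b] → u ∈ C[y] → u ∉ C[b] → #N(zpowers b) ≤ 2420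

set_option synthInstance.maxSize 1024 in
theorem JG.coatom (h : JG G) {H : Subgroup G} {n : ℕ} (c : #H = n) {P : ℕ → Prop} [DecidablePred P] (hP : ∀ M, H ≤ M → P #M)
    (L : List (ℕ × ℕ)) (e : (∀ d ∈ L, d.1.Prime) ∧ n * (L.map fun d => d.1 ^ d.2).prod = n4 ∧ n ≠ n4 ∧
      allD (fun m => decide (P m ∧ Mx m → Ok m → m = n ∨ m = n4)) L n = true) : IsCoatom H :=
  h.toJF.coatom c (P := fun m => P m ∧ Mx m) (fun M hM => ⟨hP M hM, h.hm M⟩) L e

theorem S.jg [IsSimpleGroup G] {z p q : G} {Q N Q' : Subgroup G} {π μ : G → GPm} {g cq κ : ℕ → G} {e : ℕ}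
    {φ : Equiv.Perm (Fin 5) →* G} (h : S6 z p Q N π g cq Q' q μ κ e φ) : JG G := by
  have j := S.jf h
  obtain ⟨f, γ, he⟩ := S.em h
  refine ⟨j, fun M => ⟨fun e => ?_, j.mx (by decide) (j.c37 he (S.h3 h) h.no9) M, j.mx (by decide) (j.c43 he) M⟩, S.h3 h, S.h5 h,
    fun {b y u} ob oy ou h1 h2 h3 => card_norm (c := 242) (by norm_num) ob ?_⟩
  · have i := M.card_mul_index
    rw [j.card, ← e, Nat.mul_right_inj (card_ne_zero M)] at i
    rcases (normal_of_index_eq_two i).eq_bot_or_eq_top with rfl | rfl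
    · simp at e
    · simp at i
  have hp : Nat.Prime 11 := by norm_num
  have pe : ∀ {a : G}, orderOf a = 11 → PiE {11} a := fun o => piG_zpowers.1 (PiN.of_card hp ((Nat.card_zpowers _).trans o))
  obtain ⟨V, sV, e0⟩ := (piG_zpowers.2 (pe oy)).exists_syl le_top
  obtain ⟨c0, -, ti⟩ := j.ti V sV
  have s := sV.of_le le_normalizer le_top
  have k : ∀ {a}, a ∈ V → orderOf a = 11 → C[a] ≤ N(V) := fun {a} ha o c hc => (ti a ha c (by
    rwa [mul_assoc, ← mem_cent1.1 hc, inv_mul_cancel_left])).resolve_left fun e => by simp [e] at o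
  have k1 := k (e0 (mem_zpowers y)) oy
  have n := k (s.mem_of_normal le_rfl (k1 (mem_cent1_symm.1 h1)) (pe ob)) ob
  obtain ⟨U, x, sU, -, -, c1, -, -, -, cx, cl⟩ := h.syl11
  obtain ⟨U', sU', e1⟩ := (piG_zpowers.2 (pe ob)).exists_syl le_top
  obtain ⟨t, -, rfl⟩ := sU.sconj sU'
  have cc : ∀ {a : G}, IsConj a (t⁻¹ * b * t) → #C[a] = #C[b] := fun e => by
    obtain ⟨c, e⟩ := isConj_iff.1 e
    rw [← card_cj c, cj_cent1, e, ← card_cj t, cj_cent1]; simp [mul_assoc]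
  rcases cl _ (mem_cj.1 (e1 (mem_zpowers b))) with e | e | e
  · simp [show b = 1 by simpa [mul_assoc] using (conj_eq_one_iff (a := t⁻¹)).1 (by simpa using e)] at ob
  · refine (h3 (inf_eq_left.1 (eq_of_le_of_card_ge inf_le_left (c0 ▸ Nat.le_of_dvd (card_pos _) ((s.inf_of_norm' n n).dvd
      (PiN.prime_pow hp 3) (by rw [← cc e, c1]; decide)))) (s.mem_of_normal le_rfl (k1 h2) (pe ou)))).elim
  · exact ((cc e).symm.trans cx).le

end H16.JM
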