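import Cfsg.Agent.H16.JM5
import Cfsg.Agent.H16.P.JNU
import Cfsg.Agent.H16.P.JNL
import Cfsg.Agent.H16.P.JNP
import Cfsg.Agent.H16.P.JNM
import Cfsg.Agent.H16.P.JNT
import Cfsg.Agent.H16.L.U311
import Cfsg.Agent.H16.L.U33
import Cfsg.Agent.H5.Zs4
import Cfsg.Agent.H20.J4.LI
import Cfsg.Agent.H20.J4.JT

/-! Non-local maximal subgroups of `J₄`. -/

set_option autoImplicit false
set_option synthInstance.maxSize 1024
open Subgroup H19 H0 H20.J4
namespace H16.JM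
variable {G : Type*} [Group G] [Finite G]
local notation "cj" => H19.cj

theorem l232 : ∃ (F : Type) (_ : Field F) (_ : Fintype F), Fintype.card F = 32 ∧
    Nonempty (gen L232.g 4 ≃* Matrix.ProjectiveSpecialLinearGroup (Fin 2) F) := by
  let x : Fin 3 ↪ Fin 33 := ⟨![0, 1, 13], by decide⟩
  have s : MulAction.stabilizer (gen L232.g 4) x = ⊥ := (eq_bot_iff_forall _).2 fun a e => Subtype.ext (L232.isBase a a.2 (by
    have e := fun i => DFunLike.congr_fun (show a • x = x from e) i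
    simpa [L232.B] using ⟨e 0, e 1, e 2⟩))
  have t : MulAction.IsMultiplyPretransitive (gen L232.g 4) (Fin 33) 3 := (MulAction.isPretransitive_iff_orbit_eq_univ x).2
    (Set.eq_of_subset_of_ncard_le (Set.subset_univ _) (by
      rw [← MulAction.index_stabilizer, s, index_bot, L232.card, Set.ncard_univ, Nat.card_eq_fintype_card, Fintype.card_embedding_eq]
      decide))
  have hz := H5.zs_of_sharp t (fun y => by
    obtain ⟨g, rfl⟩ := MulAction.exists_smul_eq (gen L232.g 4) x y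
    exact (MulAction.stabilizer_smul_eq_stabilizer_map_conj g x).trans ((congrArg (map _) s).trans (Subgroup.map_bot _))) (by simp)
  have h : (0 : Fin 33) ≠ 1 := by decide
  have h2 : 32 = _ := Nat.succ.inj ((Nat.card_fin 33).symm.trans (hz.card_F h))
  obtain ⟨K, _, _, -, e, -, h4⟩ := hz.pgl_psl_of_even_F h (h2 ▸ by decide) (hz.card_D_of_mt3 t (by simp) h)
  exact ⟨K, inferInstance, inferInstance, e.trans h2.symm, h4⟩

omit [Finite G] in
theorem iso {Rl : List (List ℕ)} {K c : ℕ} (hB : Bound Rl K c) {G₀ : Type*} [Group G₀] {g₀ : ℕ → G₀} (h₀ : Rels g₀ Rl)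
    (hc : #(gen g₀ K) = c) (s : IsSimpleGroup (gen g₀ K)) {δ : ℕ → G} (r : Rels δ Rl) (o : orderOf (δ 2) = 2) (hK : 2 < K) :
    #(gen δ K) = c ∧ Nonempty (gen δ K ≃* gen g₀ K) :=
  have ⟨i, _⟩ := hB.exists_equiv_of_simple h₀ hc r hK fun e => by simp [e] at o
  ⟨(Nat.card_congr i.toEquiv).symm.trans hc, ⟨i.symm⟩⟩

namespace JG
variable (h : JG G) {f : G →* GL (Fin 112) (ZMod 2)} {γ : ℕ → G} (he : Em f γ DJ4.g 14)
include h he
theorem mU : ∃ M : Subgroup G, IsCoatom M ∧ ∃ (K : Subgroup M) (F : Type) (_ : Field F) (_ : Fintype F),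
    Fintype.card F = 121 ∧ K.Normal ∧ K.index = 2 ∧ Nonempty (K ≃* Cfsg.PSU 3 F 11) := by
  obtain ⟨δ, r, o2, n, o, a, ha, oa, na⟩ := JNU.main he
  obtain ⟨c, ⟨i⟩⟩ := iso U311.bound U311.rels U311.card U311.simple r o2 (by decide)
  obtain ⟨c1, c2, c3⟩ := ext Nat.prime_two n o (h.nin (e := 12) (by decide) ha oa c na o (by decide +kernel))
  rw [c] at c1
  exact ⟨_, h.coatom c1 (P := fun m => ∃ d ∈ dv 240, 80 ∣ d ∧ d11 m d) (h.e11 le_rfl c1 c1 (by decide +kernel))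
    [(2, 15), (3, 1), (7, 1), (23, 1), (29, 1), (31, 1), (43, 1)] (by decide +kernel), _, LU311.F121, inferInstance, inferInstance, rfl,
    c2, c3, ⟨(subgroupOfEquivOfLe le_sup_left).trans (i.trans LU311.equiv.some)⟩⟩
theorem mL : ∃ M : Subgroup G, IsCoatom M ∧ ∃ (K : Subgroup M) (F : Type) (_ : Field F) (_ : Fintype F),
    Fintype.card F = 32 ∧ K.Normal ∧ K.index = 5 ∧ Nonempty (K ≃* Matrix.ProjectiveSpecialLinearGroup (Fin 2) F) := by
  obtain ⟨δ, r, o2, n, o, oa, na, k⟩ := JNL.main he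
  obtain ⟨c, ⟨i⟩⟩ := iso L232.bound L232.rels L232.card L232.simple r o2 (by decide)
  obtain ⟨F, _, _, cF, ⟨j⟩⟩ := l232
  have ha := mem_gen δ (by decide : 0 < 4)
  obtain ⟨c1, c2, c3⟩ := ext (by norm_num) n o (h.nin (e := 10) (by decide) ha oa c na o (by decide +kernel))
  rw [gen_succ'] at k
  rw [c] at c1
  obtain ⟨e, e1, e2, e3⟩ := h.cond' (e := 10) (by decide) (mem_sup_left ha : _ ∈ gen δ 4 ⊔ zpowers (δ 4)) oa
  obtain rfl := (by decide +kernel : ∀ e ∈ dv 10, cond (32736 * 5) 31 31 e → e = 10) e e1 (c1 ▸ e3)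
  exact ⟨_, h.coatom c1 (P := fun m => m / (32736 * 5) % 31 = 1 ∧ (m / (32736 * 5) % 5 = 1 ∨ 23 ∣ m) ∧ ∃ d ∈ dv 240, 30 ∣ d ∧ d11 m d)
    (fun M hM => ⟨c1 ▸ idx_mod (by norm_num) (h.sylz (by norm_num) (by decide) oa) (zpowers_le.2 (mem_sup_left ha)) hM
      (inf_le_right.trans (h.nle (by decide) oa e2)), (k (h.h5 _ o) M hM).imp_left fun e => c1 ▸ idx_mod (by norm_num)
        (h.sylz (by norm_num) (by decide) o) le_sup_right hM e, h.e11 le_sup_left c c1 (by decide +kernel) M hM⟩)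
    [(2, 16), (3, 2), (7, 1), (11, 2), (23, 1), (29, 1), (37, 1), (43, 1)] (by decide +kernel), _, F, inferInstance, inferInstance, cF,
    c2, c3, ⟨(subgroupOfEquivOfLe le_sup_left).trans (i.trans j)⟩⟩
theorem mP : ∃ M : Subgroup G, IsCoatom M ∧ Nonempty (M ≃* GL (Fin 2) (ZMod 23) ⧸ center (GL (Fin 2) (ZMod 23))) := by
  obtain ⟨δ, r, a, ha, c, hc, t, ht, b, hb, y, u, oa, oc, ot, n, ob, oy, ou, h1, h2, h3, -, k⟩ := JNP.main he
  have c1 := (P223.bound.le r).2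
  obtain ⟨e, e1, e2, -, ⟨i, e3⟩, e4, -⟩ := h.cond' (e := 22) (by decide) ha oa
  obtain rfl := (by decide +kernel : ∀ e ∈ dv 22, 22 ∣ 23 * e → e = 22) e e1 (e2 ▸ ot ▸ orderOf_dvd_card' ⟨ht, n⟩)
  have e5 := oc ▸ orderOf_dvd_card' hc
  have c : #(gen δ 4) = 12144 := by omega
  refine ⟨_, h.coatom c (P := fun m => m / 12144 % 23 = 1 ∧ (m / 12144 % 11 = 1 ∨ 31 ∣ m)) (fun M hM => ⟨c ▸ idx_mod (by norm_num)
    (h.sylz (by norm_num) (by decide) oa) (zpowers_le.2 ha) hM (inf_le_right.trans (h.nle (by decide) oa e2)),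
    (k (h.h11 ob oy ou h1 h2 h3) M hM).imp_left fun e => c ▸ idx_mod' (by norm_num) (syl_z (by norm_num) ob hb (by rw [c]; decide)) hM e⟩)
    [(2, 17), (3, 2), (5, 1), (7, 1), (11, 2), (29, 1), (31, 1), (37, 1), (43, 1)] (by decide +kernel), pgl23 c fun u o => ?_⟩
  rw [← card_map_of_injective (subtype_injective _)]
  exact (card_le (by rintro _ ⟨x, hx, rfl⟩; exact mem_cent1.2 (congrArg Subtype.val (mem_cent1.1 hx)))).trans
    (h.cn (23, 23, 22) (by decide) u ((orderOf_coe u).trans o)).1.le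
theorem mM : ∃ M : Subgroup G, IsCoatom M ∧ Nonempty (M ≃* MulAut Cfsg.Spor.M22) := by
  obtain ⟨δ, r, o2, n, o, ⟨t, ht, ot, k7⟩, b, hb, sb, y, u, ob, oy, ou, h1, h2, h3, c0, k⟩ := JNM.main he
  have sM : IsSimpleGroup M22 := M22_eq ▸ H15.simple_M22
  obtain ⟨c, ⟨i⟩⟩ := iso H15.MM22.bound H15.MM22.rels H15.MM22.card sM r o2 (by decide)
  have c2 := h.h11 ob oy ou h1 h2 h3
  rw [gen_succ'] at k k7 ht
  generalize gen δ 9 = K at *
  generalize δ 9 = s at *
  have sN : s ∈ N(zpowers b) := mem_norm_of_cj_le (by rw [cj_zpowers, zpowers_le, sb, mul_inv_cancel_right]; exact npow_mem_zpowers b 10)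
  have e : ∀ a ∈ K, s * a ∉ C[b] := fun a ha e => by
    have aN : a ∈ K ⊓ N(zpowers b) := ⟨ha, by simpa using mul_mem (inv_mem sN) (cent1_le_norm_zpowers b e)⟩
    have d := syl_mod (by norm_num) (syl_z (by norm_num) ob hb (by rw [c]; decide))
    rw [← inf_relIndex_left, ← div_idx inf_le_left, c] at d
    have d1 := (by decide +kernel : ∀ x ∈ dv 2420, 11 ∣ x → x ∣ 443520 → 443520 / x % 11 = 1 % 11 → x = 55) _
      (mem_dv (c2.antisymm c0 ▸ card_dvd inf_le_right) (by decide)) (ob ▸ orderOf_dvd_card' ⟨hb, le_normalizer (mem_zpowers b)⟩)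
      (c ▸ card_dvd inf_le_left) d
    have a1 : a ^ 55 = 1 := orderOf_dvd_iff_pow_eq_one.1 (d1 ▸ orderOf_dvd_card' aN)
    have s2 : s * s = 1 := (sq s).symm.trans (o ▸ pow_orderOf_eq_one s)
    have a2 : a * a ∈ C[b] := by
      have := mul_mem (conj_mem_of_norm (cent_zpowers b ▸ norm_le_norm_cent _ sN) e) e
      rwa [show s * (s * a) * s⁻¹ * (s * a) = s * s * a * a by group, s2, one_mul] at this
    have a3 : a ∈ C[b] := by
      convert pow_mem a2 28 using 1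
      rw [← sq, ← pow_mul, pow_succ, a1, one_mul]
    have a4 := (mem_cent1.1 (by simpa using mul_mem e (inv_mem a3) : s ∈ C[b])).symm.trans sb
    rw [mul_left_inj, pow_succ, right_eq_mul, ← orderOf_dvd_iff_pow_eq_one, ob] at a4
    omega
  have e1 : s ∉ K := fun hs => e _ (inv_mem hs) (by simp)
  obtain ⟨c1, -, c3⟩ := ext Nat.prime_two n o e1
  rw [c] at c1
  have l : K ⊔ zpowers s ≤ N(K) := sup_le le_normalizer (zpowers_le.2 n)
  let θ := K.normalizerMonoidHom.comp (inclusion l)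
  have := i.isSimpleGroup
  have inj : Function.Injective θ := (injective_iff_map_eq_one _).2 fun a ea => by
    have ea : a.1 ∈ C(K) := by
      have : inclusion l a ∈ K.normalizerMonoidHom.ker := ea
      rwa [normalizerMonoidHom_ker] at this
    have aK : a.1 ∈ K := by_contra fun aK => e (s⁻¹ * a) ((mul_mem_iff_of_index_two (H := K.subgroupOf _) c3
      (a := ⟨s, mem_sup_right (mem_zpowers s)⟩⁻¹) (b := a)).2 (iff_of_false (by simpa [mem_subgroupOf]) aK))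
        (by simpa using cent_le_cent1 hb ea)
    rcases (inferInstance : (center K).Normal).eq_bot_or_eq_top with z | z
    · exact Subtype.ext (congrArg (Subtype.val : K → G) (mem_bot.1 (z ▸ mem_center_iff.2 fun y => Subtype.ext (ea y y.2) :
        (⟨_, aK⟩ : K) ∈ ⊥)))
    have := card_le (show K ≤ N(zpowers b) from fun y hy => cent1_le_norm_zpowers b (mem_cent1.2
      (congrArg Subtype.val (mem_center_iff.1 (z ▸ mem_top _ : (⟨b, hb⟩ : K) ∈ center K) ⟨y, hy⟩))))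
    omega
  have j := MulAut.congr (i.trans (MulEquiv.subgroupCongr M22_eq))
  exact ⟨_, h.coatom c1 (P := fun m => (m / (443520 * 2) % 7 = 1 ∨ 29 ∣ m) ∧ (m / (443520 * 2) % 11 = 1 ∨ 43 ∣ m)) (fun M hM =>
    ⟨(k7 (h.cn (7, 840, 3) (by decide) _ ot).2.le M hM).imp_left fun e => c1 ▸ idx_mod (by norm_num) (h.sylz (by norm_num) (by decide) ot)
      (zpowers_le.2 ht) hM e, (k c2 M hM).imp_left fun e => c1 ▸ idx_mod' (by norm_num)
        (syl_z (by norm_num) ob (mem_sup_left hb) (by rw [c1]; decide)) hM e⟩)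
    [(2, 13), (3, 1), (11, 2), (23, 1), (29, 1), (31, 1), (37, 1), (43, 1)] (by decide +kernel),
    ⟨(MulEquiv.ofBijective θ ((Nat.bijective_iff_injective_and_card _).2 ⟨inj, by
      rw [c1, Nat.card_congr (j.trans aut_M22.some.symm).toEquiv, card_AA]⟩)).trans j⟩⟩
theorem mT : ∃ M : Subgroup G, IsCoatom M ∧ ∃ (F : Type) (_ : Field F) (_ : Fintype F), Fintype.card F = 9 ∧
    Nonempty (M ≃* Cfsg.PSU 3 F 3) := by
  obtain ⟨δ, ρ, r, o2, l, ⟨ox, oy, ou, ot⟩, ⟨h1, h2, h3, n2, n3⟩, ⟨t, ht, o7, k7⟩, kx, ky⟩ := JNT.main he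
  obtain ⟨c, ⟨i⟩⟩ := iso U33.bound U33.rels U33.card U33.simple r o2 (by decide)
  generalize gen δ 4 = H at *
  have g1 : gen ρ 1 = zpowers (ρ 0) := by rw [gen_succ', gen_zero, bot_sup_eq]
  have z := (Nat.card_zpowers _).trans ox
  have c2 := (ext Nat.prime_three (cent1_le_norm_zpowers _ h1) oy fun e =>
    h3 (mem_cent1_symm.1 (zpowers_le.2 (mem_cent1_symm.1 h2) e))).1
  rw [z, ← g1, ← gen_succ'] at c2
  have c3 := (ext Nat.prime_three n2 ou fun e => h3 (gen_le.2 (fun k hk => by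
    interval_cases k
    exacts [mem_cent1_symm.1 h1, mem_cent1_self _]) e)).1
  rw [c2, ← gen_succ'] at c3
  replace c2 : #(gen ρ 2) = 9 := c2
  replace c3 : #(gen ρ 3) = 27 := c3
  have l3 : gen ρ 3 ≤ C[ρ 0] := gen_le.2 fun k hk => by interval_cases k; exacts [mem_cent1_self _, h1, h2]
  have l4 := gen_mono ρ (by decide : 3 ≤ 4)
  have l5 : gen ρ 4 ≤ N(gen ρ 3) := gen_succ' ρ 3 ▸ sup_le le_normalizer (zpowers_le.2 n3)
  have sR := H20.J4.syl_card (k := 3) (m := 224) Nat.prime_three (l4.trans l) c3 c (by decide)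
  have c4 : 216 ∣ #(gen ρ 4) := (by decide : Nat.Coprime 27 8).mul_dvd_of_dvd_of_dvd (c3 ▸ card_dvd l4)
    (ot ▸ orderOf_dvd_card' (mem_gen ρ (by decide)))
  refine ⟨H, h.coatom c (P := fun m => (m / 6048 % 27 = 1 ∨ 23 ∣ m ∧ 37 ∣ m) ∧ (m / 6048 % 7 = 1 ∨ 31 ∣ m)) (fun M hM =>
    ⟨or_iff_not_imp_right.2 fun n => ?_, (k7 (h.cn (7, 840, 3) (by decide) _ o7).2.le M hM).imp_left fun e =>
      c ▸ idx_mod (by norm_num) (h.sylz (by norm_num) (by decide) o7) (zpowers_le.2 ht) hM e⟩)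
    [(2, 16), (5, 1), (11, 3), (23, 1), (29, 1), (31, 1), (37, 1), (43, 1)] (by decide +kernel), F9c, inferInstance, inferInstance, rfl,
    ⟨i.trans LU33.equiv.some⟩⟩
  have e1 := (kx (card_norm Nat.prime_three ox (h.h3 _ ox)) M hM).resolve_right n
  have e2 := (ky (h.h3 _ oy) M hM).resolve_right n
  have e3 := c2 ▸ card_le e2
  have e4 : ∀ m ∈ M, m * ρ 1 * m⁻¹ ∉ zpowers (ρ 0) := fun m hm e => by
    have := card_le (le_inf ((l4.trans l).trans hM) (l3.trans (cent1_le_cent1_of_mem_zpowers e)))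
    rw [← cj_cent1, ← cj_of_mem hm, ← cj_inf, card_cj] at this
    omega
  have e5 : cl (gen ρ 4) (ρ 1) = (gen ρ 3 : Set G) \ zpowers (ρ 0) := Set.eq_of_subset_of_ncard_le (fun _ ⟨a, ha, e⟩ =>
    e ▸ ⟨conj_mem_of_norm (l5 ha) (mem_gen ρ (by decide)), e4 a (hM (l ha))⟩) (by
    have d1 := cl_card (gen ρ 4) (ρ 1)
    have d2 := Nat.mul_le_mul_left (cl (gen ρ 4) (ρ 1)).ncard ((card_le (inf_le_inf_right C[ρ 1] (l.trans hM))).trans e3)
    have d3 := Nat.le_of_dvd (card_pos _) c4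
    rw [Set.ncard_sdiff (g1 ▸ gen_mono ρ (by decide)), ← Nat.card_coe_set_eq (zpowers (ρ 0) : Set G),
      ← Nat.card_coe_set_eq (gen ρ 3 : Set G), SetLike.coe_sort_coe, SetLike.coe_sort_coe, z, c3]
    omega)
  have e6 : ∀ a ∈ gen ρ 3, a ∈ zpowers (ρ 0) ∨ ∃ b ∈ H, b * ρ 1 * b⁻¹ = a := fun a ha => or_iff_not_imp_left.2 fun n =>
    have ⟨b, hb, e⟩ := e5.ge ⟨ha, n⟩; ⟨b, l hb, e⟩
  have := dbl_dvd (l4.trans l) hM fun a ha m hm e => or_iff_not_imp_left.2 fun a1 => by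
    obtain ⟨P, sP, d⟩ := (piG_zpowers.2 (by simpa using (sR.pi.elt ha).e_conj m⁻¹)).exists_syl (zpowers_le.2 e)
    obtain ⟨g, hg, rfl⟩ := sR.sconj sP
    have gM := mul_mem hm (hM hg)
    refine (mul_mem_cancel_right hg).1 ?_
    have d := mem_cj.1 (d (mem_zpowers _))
    rw [show g⁻¹ * (m⁻¹ * a * m) * g = (m * g)⁻¹ * a * (m * g) by group] at d
    generalize m * g = w at *
    rcases e6 a ha with a2 | ⟨b, hb, rfl⟩ <;> rcases e6 _ d with a3 | ⟨b', hb', a3⟩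
    · refine e1 ⟨gM, mem_norm_of_le_cj ?_⟩
      rw [← eq_zpowers_of_prime (z ▸ Nat.prime_three) a2 a1, zpowers_le, mem_cj, eq_zpowers_of_prime (z ▸ Nat.prime_three) a2 a1]
      exact a3
    · exact (e4 (w * b') (mul_mem gM (hM hb')) (by convert a2 using 1; rw [_root_.mul_inv_rev, ← mul_assoc, mul_assoc w, mul_assoc w, a3]; group)).elim
    · exact (e4 (w⁻¹ * b) (mul_mem (inv_mem gM) (hM hb)) (by convert a3 using 1; group)).elim
    · have := (e2.trans ((gen_mono ρ (by decide)).trans l)) ⟨M.mul_mem (M.mul_mem (inv_mem (hM hb)) gM) (hM hb'), mem_cent1.2 (by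
        rw [mul_assoc _ b', eq_mul_of_mul_inv_eq a3]; group)⟩
      exact (mul_mem_cancel_left (inv_mem hb)).1 ((mul_mem_cancel_right hb').1 this)
  rwa [c3, ← div_idx hM, c] at this
end JG

end H16.JM
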