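import Cfsg.Agent.H15.HSGraph
import Cfsg.Agent.H15.R3d

/-! Rank 3 recognition of McL: general lemmas. -/

set_option linter.unusedSectionVars false

namespace H16.McR
open MulAction Finset SimpleGraph H15

section
variable {Ω : Type*} [Fintype Ω] {Γ : SimpleGraph Ω} [DecidableRel Γ.Adj]

theorem params {l m : ℕ} (h : Γ.IsSRGWith 275 112 l m) : l = 30 ∧ m = 56 := by
  classical
  have h1 := h.param_eq Γ (by norm_num)
  by_cases hm : m = 0
  · exfalso
    subst hm
    have ex : ∀ s : Finset Ω, s.card < 275 → ∃ x, x ∉ s := fun s hs => by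
      by_contra! e
      have := eq_univ_iff_forall.2 e
      rw [this, card_univ, h.card] at hs
      omega
    let N : Ω → Finset Ω := fun x => univ.filter fun y => Γ.Adj x y
    have cN : ∀ x, (N x).card = 112 := srg_deg h
    have dj : ∀ x y, y ∉ insert x (N x) → Disjoint (N x) (N y) := fun x y e => by
      simp only [mem_insert, not_or, N, mem_filter, mem_univ, true_and] at e
      have := card_eq_zero.1 (srg_nadj h (Ne.symm e.1) e.2)
      rw [filter_and] at this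
      exact disjoint_iff_inter_eq_empty.2 this
    obtain ⟨a, -⟩ := ex ∅ (by simp)
    obtain ⟨c, hc⟩ := ex (insert a (N a)) ((card_insert_le _ _).trans_lt (by rw [cN]; omega))
    obtain ⟨d, hd⟩ := ex (insert a (N a) ∪ insert c (N c)) ((card_union_le _ _).trans_lt (by
      have := card_insert_le a (N a); have := card_insert_le c (N c); have := cN a; have := cN c; omega))
    rw [mem_union, not_or] at hd
    have := card_le_univ (N a ∪ N c ∪ N d)
    rw [card_union_of_disjoint (disjoint_union_left.2 ⟨dj _ _ hd.1, dj _ _ hd.2⟩),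
      card_union_of_disjoint (dj _ _ hc), cN, cN, cN, h.card] at this
    omega
  · omega

/-- cliques meeting the Hoffman bound -/
theorem hoffman (h : Γ.IsSRGWith 275 112 30 56) {u : Fin 5 → Ω} (hu : ∀ i j, i ≠ j → Γ.Adj (u i) (u j)) {z : Ω}
    (hz : ∀ i, u i ≠ z) : ∑ i, (if Γ.Adj (u i) z then (1 : ℤ) else 0) = 2 := by
  classical
  let f : Ω → ℤ := fun z => (∑ i, (if Γ.Adj (u i) z then (1 : ℤ) else 0) - 2) ^ 2
  have e1 : ∀ i, ∑ z, (if Γ.Adj (u i) z then (1 : ℤ) else 0) = 112 := fun i => by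
    rw [sum_boole, srg_deg h]; rfl
  have e2 : ∀ i j, ∑ z, (if Γ.Adj (u i) z then (1 : ℤ) else 0) * (if Γ.Adj (u j) z then (1 : ℤ) else 0) =
      if i = j then 112 else 30 := fun i j => by
    simp only [← ite_and, mul_ite, mul_one, mul_zero, sum_boole]
    split_ifs with e
    · simp only [e, and_self, srg_deg h]; rfl
    · rw [srg_adj h (hu _ _ e).symm]; rfl
  have e3 : ∑ z, f z = 20 := by
    have : ∀ z, f z = ∑ i, ∑ j, (if Γ.Adj (u i) z then (1 : ℤ) else 0) * (if Γ.Adj (u j) z then (1 : ℤ) else 0) -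
        4 * ∑ i, (if Γ.Adj (u i) z then (1 : ℤ) else 0) + 4 := fun z => by
      rw [← sum_mul_sum]; simp only [f]; ring
    simp only [this, sum_add_distrib, sum_sub_distrib]
    rw [← mul_sum, sum_comm, sum_comm (s := (univ : Finset Ω))]
    simp only [sum_comm (s := (univ : Finset Ω)) (t := (univ : Finset (Fin 5))), e1, e2, sum_const, card_univ, h.card]
    decide
  have inj : Function.Injective u := fun i j e => by_contra fun n => (hu i j n).ne e
  have e4 : ∀ i, f (u i) = 4 := fun i => by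
    have : ∀ j, (if Γ.Adj (u j) (u i) then (1 : ℤ) else 0) = if j = i then 0 else 1 := fun j => by
      by_cases e : j = i
      · simp [e]
      · simp [e, hu j i e]
    simp only [f, this]
    clear this; revert i; decide
  have e5 := sum_le_sum_of_subset_of_nonneg (subset_univ (insert z (univ.image u))) (f := f) fun _ _ _ => sq_nonneg _
  rw [sum_insert (by simpa using hz), sum_image fun _ _ _ _ e => inj e, e3] at e5
  simp only [e4, sum_const, card_univ, Fintype.card_fin] at e5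
  have : f z = 0 := le_antisymm (by simpa using e5) (sq_nonneg _)
  simpa [f, sub_eq_zero] using this
end

section
variable {H X Ω : Type*} [Group H] [MulAction H X] {ρ : H →* Equiv.Perm Ω}

/-- the stabiliser of a point in a representation -/
def St (ρ : H →* Equiv.Perm Ω) (x : Ω) : Subgroup H := (stabilizer (Equiv.Perm Ω) x).comap ρ

theorem mem_St {x : Ω} {h : H} : h ∈ St ρ x ↔ ρ h x = x := Iff.rfl

theorem St_index (x : Ω) : (St ρ x).index = {y | ∃ h, ρ h x = y}.ncard :=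
  letI := MulAction.compHom Ω ρ
  index_stabilizer H x

theorem rmul (h k : H) (x : Ω) : ρ (h * k) x = ρ h (ρ k x) := by rw [map_mul]; rfl
theorem rinv (h : H) (x : Ω) : ρ h⁻¹ (ρ h x) = x := by rw [← rmul, inv_mul_cancel, map_one]; rfl
theorem rinv' (h : H) (x : Ω) : ρ h (ρ h⁻¹ x) = x := by rw [← rmul, mul_inv_cancel, map_one]; rfl

theorem exists_St [Finite H] (p : ℕ) [Fact p.Prime] {S : Subgroup H} (hS : IsPGroup p S) (x : Ω)
    (h : ¬ p ∣ (St ρ x).index) : ∃ γ, S ≤ St ρ (ρ γ x) := by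
  obtain ⟨γ, e⟩ := R3.exists_cjS p hS _ h
  refine ⟨γ⁻¹, fun y hy => ?_⟩
  have := mem_St.1 (R3.mem_cjS.1 (e hy))
  rw [rmul, rmul] at this
  rw [mem_St, ← (ρ γ).injective.eq_iff, this, rinv']

theorem exists_eqv {p : X} {b : Ω} (e : stabilizer H p ≤ St ρ b) :
    ∃ δ : X → Ω, ∀ h : H, δ (h • p) = ρ h b := by
  classical
  refine ⟨fun x => if hx : ∃ h : H, h • p = x then ρ hx.choose b else b, fun h => ?_⟩
  have hx : ∃ k : H, k • p = h • p := ⟨h, rfl⟩
  have := mem_St.1 (e (show h⁻¹ * hx.choose ∈ stabilizer H p by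
    rw [mem_stabilizer_iff, mul_smul, hx.choose_spec, inv_smul_smul]))
  rw [rmul] at this
  simp only [dif_pos hx]
  rw [← (ρ h⁻¹).injective.eq_iff, this, rinv]

/-- an equivariant map from the cell `C` to the cell `D` -/
structure Eqv (ρ : H →* Equiv.Perm Ω) (C : X → Prop) (D : Ω → Prop) (δ : X → Ω) : Prop where
  mp : ∀ x, C x → D (δ x)
  eq : ∀ (h : H) x, C x → δ (h • x) = ρ h (δ x)

/-- an orbit -/
structure Orb (ρ : H →* Equiv.Perm Ω) (D : Ω → Prop) (n : ℕ) : Prop where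
  inv : ∀ h x, D x → D (ρ h x)
  tr : ∀ x y, D x → D y → ∃ h, ρ h x = y
  card : {x | D x}.ncard = n

variable {C : X → Prop} {D : Ω → Prop} {δ : X → Ω} {n : ℕ}

theorem Orb.index (O : Orb ρ D n) {x : Ω} (hx : D x) : (St ρ x).index = n := by
  rw [St_index, ← O.card]
  congr 1; ext y
  exact ⟨fun ⟨h, e⟩ => e ▸ O.inv h x hx, O.tr x y hx⟩

theorem Orb.comp (O : Orb ρ D n) (α : H ≃* H) : Orb (ρ.comp α.toMonoidHom) D n :=
  ⟨fun h => O.inv _, fun x y hx hy => (O.tr x y hx hy).elim fun h e => ⟨α.symm h, by simpa using e⟩, O.card⟩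

theorem eqv_of [Finite H] (O0 : Orb (toPermHom H X) C n) (O : Orb ρ D n) {p : X} {b : Ω} (hp : C p) (hb : D b)
    (e : St ρ b ≤ stabilizer H p) : ∃ δ, Eqv ρ C D δ ∧ δ p = b := by
  have e1 := (St ρ b).index_mul_card
  have e2 := (stabilizer H p).index_mul_card
  rw [O.index hb] at e1
  rw [show (stabilizer H p).index = n from O0.index hp, ← e1] at e2
  have n0 : 0 < n := Nat.pos_of_ne_zero fun e => by
    rw [e, zero_mul] at e1; exact Nat.card_pos.ne e1
  obtain ⟨δ, h⟩ := exists_eqv (Subgroup.eq_of_le_of_card_ge e (Nat.eq_of_mul_eq_mul_left n0 e2).le).ge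
  refine ⟨δ, ⟨fun x hx => ?_, fun k x hx => ?_⟩, by simpa using h 1⟩ <;> obtain ⟨l, rfl⟩ := O0.tr p x hp hx
  · exact (h l).symm ▸ O.inv l b hb
  · exact (congrArg δ (mul_smul k l p).symm).trans ((h _).trans ((rmul _ _ _).trans (congrArg _ (h l).symm)))

theorem Eqv.bij [Finite X] (E : Eqv ρ C D δ) (O0 : Orb (toPermHom H X) C n) (O : Orb ρ D n) {p : X} (hp : C p) :
    Set.BijOn δ {x | C x} {x | D x} := by
  have s : Set.SurjOn δ {x | C x} {x | D x} := fun y hy => by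
    obtain ⟨h, rfl⟩ := O.tr _ y (E.mp p hp) hy
    exact ⟨h • p, O0.inv h p hp, E.eq h p hp⟩
  have i : δ '' {x | C x} = {x | D x} := Set.Subset.antisymm (Set.MapsTo.image_subset E.mp) s
  exact ⟨E.mp, Set.injOn_of_ncard_image_eq (by rw [i, O.card, O0.card]), s⟩

theorem Eqv.adj [Finite X] (E : Eqv ρ C D δ) (O0 : Orb (toPermHom H X) C n) (O : Orb ρ D n) {p : X} (hp : C p)
    {A : SimpleGraph X} {Γ : SimpleGraph Ω} (iA : ∀ (h : H) x y, A.Adj (h • x) (h • y) ↔ A.Adj x y)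
    (iΓ : ∀ h x y, Γ.Adj (ρ h x) (ρ h y) ↔ Γ.Adj x y) {m : ℕ} (c0 : {y | C y ∧ A.Adj p y}.ncard = m)
    (c1 : {y | D y ∧ Γ.Adj (δ p) y}.ncard = m) (c2 : m < {y | C y ∧ ¬ A.Adj p y ∧ y ≠ p}.ncard)
    (tr : ∀ x y, C x ∧ ¬ A.Adj p x ∧ x ≠ p → C y ∧ ¬ A.Adj p y ∧ y ≠ p → ∃ h : H, h • p = p ∧ h • x = y)
    {x y : X} (hx : C x) (hy : C y) : A.Adj x y ↔ Γ.Adj (δ x) (δ y) := by
  have b := E.bij O0 O hp
  have c3 : {y | C y ∧ Γ.Adj (δ p) (δ y)}.ncard = m := by
    rw [← c1, ← Set.InjOn.ncard_image (b.injOn.mono fun _ h => h.1)]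
    congr 1; ext z
    exact ⟨fun ⟨y, h, e⟩ => e ▸ ⟨E.mp y h.1, h.2⟩, fun h => by
      obtain ⟨y, h1, rfl⟩ := b.surjOn h.1
      exact ⟨y, ⟨h1, h.2⟩, rfl⟩⟩
  have s : {y | C y ∧ Γ.Adj (δ p) (δ y)} ⊆ {y | C y ∧ A.Adj p y} := fun z hz => ⟨hz.1, by_contra fun n => by
    refine (c3 ▸ c2).not_ge (Set.ncard_le_ncard fun w hw => ⟨hw.1, ?_⟩)
    obtain ⟨h, e1, rfl⟩ := tr z w ⟨hz.1, n, fun e => hz.2.ne (by rw [e])⟩ hw
    rw [← e1, E.eq h p hp, E.eq h z hz.1, iΓ]
    exact hz.2⟩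
  have e := Set.eq_of_subset_of_ncard_le s (by omega)
  obtain ⟨h, rfl⟩ := O0.tr p x hp hx
  obtain ⟨y, rfl⟩ := MulAction.surjective h y
  have hy' : C y := by simpa using O0.inv h⁻¹ _ hy
  rw [toPermHom_apply, toPerm_apply, iA, E.eq h p hp, E.eq h y hy', iΓ]
  exact ⟨fun a => (e.ge ⟨hy', a⟩).2, fun a => (e.le ⟨hy', a⟩).2⟩
end

end H16.McR
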