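import Cfsg.Agent.H16.McR1
import Cfsg.Agent.H16.P.McG

/-! Rank 3 recognition of McL: the model. -/

set_option linter.unusedSectionVars false
set_option maxRecDepth 100000

namespace H16.McR
open MulAction Finset SimpleGraph H15 H0.TR McG

theorem irr : ∀ i < 275, adj i i = false := by decide +kernel

theorem adj_symm {i j : ℕ} (hi : i < 275) (hj : j < 275) : adj i j = adj j i := by
  have := McG.sym i hi
  rw [symEnt, force_eq, force_eq] at this
  have := loop2_zero this j (Nat.zero_le _) (by simpa using hj)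
  rw [force_eq] at this
  rw [adj, adj, xor_zero this]

/-- the McLaughlin graph -/
def Mc : SimpleGraph (Fin 275) where
  Adj i j := adj i j = true
  symm := ⟨fun i j h => adj_symm i.2 j.2 ▸ h⟩
  loopless := ⟨fun i h => by rw [irr i i.2] at h; cases h⟩

noncomputable instance : DecidableRel Mc.Adj := fun i j => inferInstanceAs (Decidable (adj i j = true))

theorem mc_pt {i j : ℕ} (hi : i < 275) (hj : j < 275) : Mc.Adj (ptF 275 i) (ptF 275 j) ↔ adj i j = true := by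
  show adj _ _ = true ↔ _
  rw [ptF_val hi, ptF_val hj]

theorem ncf (p : Fin 275 → Prop) [DecidablePred p] : {x | p x}.ncard = (univ.filter p).card := by
  rw [← Set.ncard_coe_finset]; congr 1; ext; simp

theorem cards : {x | Mc.Adj 0 x}.ncard = 112 ∧ {x | ¬ Mc.Adj 0 x ∧ x ≠ 0}.ncard = 162 ∧
    {x | Mc.Adj 0 x ∧ Mc.Adj 11 x}.ncard = 30 ∧ {x | Mc.Adj 0 x ∧ ¬ Mc.Adj 11 x ∧ x ≠ 11}.ncard = 81 ∧
    {x | (¬ Mc.Adj 0 x ∧ x ≠ 0) ∧ Mc.Adj 167 x}.ncard = 56 ∧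
    {x | (¬ Mc.Adj 0 x ∧ x ≠ 0) ∧ ¬ Mc.Adj 167 x ∧ x ≠ 167}.ncard = 105 ∧
    {x | Mc.Adj 0 x ∧ Mc.Adj 11 x ∧ x.val ∉ [11, 91, 160, 219]}.ncard = 27 ∧
    {x : Fin 275 | x.val ∈ [11, 91, 160, 219]}.ncard = 4 ∧ Mc.Adj 0 11 ∧ ¬ Mc.Adj 0 167 := by
  simp only [ncf]
  decide +kernel

variable {Y : Type*} [Group Y] [MulAction Y (Fin 275)] {g : ℕ → Y}

theorem lev {Z : Type*} [Group Z] [MulAction Z (Fin 275)] {x : ℕ → Z} {P : ℕ → ℕ → ℕ} {l : Lev} {n K r : ℕ}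
    {C : ℕ → Prop} (hl : DOK l P 275) (hx : Act x (ptF 275) P 275 K)
    (c : l.n = n ∧ l.K = K ∧ l.Pt 0 = r ∧ ∀ j < 275, C j → l.Q j < n ∧ l.Pt (l.Q j) = j) {y z : Fin 275}
    (hy : C y) (hz : C z) : ∃ h ∈ gen x K, h • y = z := by
  obtain ⟨rfl, rfl, rfl, c⟩ := c
  have : ∀ y : Fin 275, C y → ∃ h ∈ gen x l.K, h • ptF 275 (l.Pt 0) = y := fun y hy => by
    obtain ⟨h1, h2⟩ := c y y.2 hy
    refine ⟨_, gen_gi x _ ▸ tw_mem _ l.D hl.hd.2.1 (l.Q y), (hl.sound hx _ h1).2.2.trans ?_⟩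
    rw [h2, ptF_coe]
  obtain ⟨a, h1, rfl⟩ := this y hy
  obtain ⟨b, h2, rfl⟩ := this z hz
  exact ⟨b * a⁻¹, mul_mem h2 (inv_mem h1), by rw [mul_smul, inv_smul_smul]⟩

/-- the stabiliser of the vertex `0` -/
abbrev HH (Y : Type*) [Group Y] [MulAction Y (Fin 275)] : Subgroup Y := stabilizer Y (0 : Fin 275)

open Classical in
/-- letters as elements of the stabiliser -/
noncomputable def lf (x : ℕ → Y) (k : ℕ) : HH Y := if h : x k ∈ HH Y then ⟨x k, h⟩ else 1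

section
variable {x : ℕ → Y} {P : ℕ → ℕ → ℕ} {n : ℕ} (hx : Act x (ptF 275) P 275 n) (hf : fixLetters P n 0 = true)
include hx hf

theorem lf_le : gen x n ≤ HH Y := fixLetters_sound hx (by norm_num) hf

theorem lf_coe {k : ℕ} (hk : k < n) : (lf x k : Y) = x k := by
  rw [lf, dif_pos (lf_le hx hf (mem_gen x hk))]

theorem lf_act : Act (lf x) (ptF 275) P 275 n := fun k hk i hi => by
  rw [Subgroup.smul_def, lf_coe hx hf hk]; exact hx k hk i hi

theorem lf_map : (gen (lf x) n).map (HH Y).subtype = gen x n := by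
  rw [map_gen]
  exact le_antisymm (gen_le.2 fun k hk => by simpa [lf_coe hx hf hk] using mem_gen x hk)
    (gen_le.2 fun k hk => lf_coe hx hf hk ▸ mem_gen (fun k => (HH Y).subtype (lf x k)) hk)

theorem lf_card : Nat.card (gen (lf x) n) = Nat.card (gen x n) := by
  rw [← lf_map hx hf, Subgroup.card_map_of_injective (HH Y).subtype_injective]
end

variable (M : Md g (ptF 275) McL.P 275 6 McL.B 898128000)
include M

theorem mc_inv (h : Y) (x y : Fin 275) : Mc.Adj (h • x) (h • y) ↔ Mc.Adj x y := by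
  have : h ∈ gen g 6 := M.top ▸ trivial
  induction this using Subgroup.closure_induction generalizing x y with
  | mem h hh =>
    obtain ⟨k, hk, rfl⟩ := hh
    have := McG.inv k hk x x.2
    rw [invEnt, force_eq, force_eq] at this
    have := loop2_zero this y (Nat.zero_le _) (by simp)
    rw [force_eq] at this
    obtain ⟨a1, a2⟩ := M.act k hk x x.2
    obtain ⟨a3, a4⟩ := M.act k hk y y.2
    rw [ptF_coe] at a2 a4
    rw [a2, a4, mc_pt a1 a3, adj, ← xor_zero this]; rfl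
  | one => simp
  | mul a b _ _ iha ihb => rw [mul_smul, mul_smul]; exact (iha _ _).trans (ihb _ _)
  | inv a _ iha => simpa using (iha (a⁻¹ • x) (a⁻¹ • y)).symm

theorem hinv (h : HH Y) (x y : Fin 275) : Mc.Adj (h • x) (h • y) ↔ Mc.Adj x y := mc_inv M h x y

theorem hinv0 (h : HH Y) (y : Fin 275) : Mc.Adj 0 (h • y) ↔ Mc.Adj 0 y := by
  rw [← hinv M h 0 y, show h • (0 : Fin 275) = 0 from h.2]

theorem cardH : Nat.card (HH Y) = 3265920 := by
  have : IsPretransitive Y (Fin 275) := ⟨fun x y => (lev l0_ok M.act l0_c (C := fun _ => True) trivial trivial).elim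
    fun h e => ⟨h, e.2⟩⟩
  have := (HH Y).index_mul_card
  rw [index_stabilizer_of_transitive, M.card, Nat.card_eq_fintype_card, Fintype.card_fin] at this
  omega

theorem O1 : Orb (toPermHom (HH Y) (Fin 275)) (Mc.Adj 0) 112 :=
  ⟨fun h x => (hinv0 M h x).2, fun _ _ hx hy => (lev lp_ok (lf_act (v_act M) vf) lp_c hx hy).elim
    fun h e => ⟨h, e.2⟩, cards.1⟩

theorem O2 : Orb (toPermHom (HH Y) (Fin 275)) (fun x => ¬ Mc.Adj 0 x ∧ x ≠ 0) 162 :=
  ⟨fun h x hx => ⟨fun e => hx.1 ((hinv0 M h x).1 e), fun e => hx.2 (smul_left_cancel h (e.trans (Eq.symm h.2)))⟩,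
    fun _ _ hx hy => (lev lq_ok (lf_act (v_act M) vf) lq_c ⟨Bool.eq_false_iff.2 hx.1, fun e => hx.2 (Fin.ext e)⟩
      ⟨Bool.eq_false_iff.2 hy.1, fun e => hy.2 (Fin.ext e)⟩).elim fun h e => ⟨h, e.2⟩, cards.2.1⟩

theorem iso {x : ℕ → Y} {P : ℕ → ℕ → ℕ} (hx : Act x (ptF 275) P 275 9) (hf : fixLetters P 9 0 = true)
    (hr : Rels x U43.Rl) (hn : x 0 ^ 1 ≠ 1) : gen (lf x) 9 = ⊤ ∧
      ∃ e : gen U43.g 9 ≃* HH Y, ∀ k (hk : k < 9), e ⟨U43.g k, mem_gen _ hk⟩ = lf x k := by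
  have := U43.simple
  have := M.fin
  obtain ⟨e, he⟩ := U43.bound.exists_equiv_of_simple U43.rels U43.card hr (by norm_num : 0 < 9) (by simpa using hn)
  have c : Nat.card (gen x 9) = 3265920 := (Nat.card_congr e.toEquiv).symm.trans U43.card
  have q := Subgroup.eq_of_le_of_card_ge (lf_le hx hf) (by rw [c, cardH M])
  refine ⟨Subgroup.eq_top_of_card_eq _ (by rw [lf_card hx hf, c, cardH M]), e.trans (MulEquiv.subgroupCongr q),
    fun k hk => Subtype.ext ?_⟩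
  rw [MulEquiv.trans_apply, he k hk, lf_coe hx hf hk]; rfl

theorem S_le : gen (lf (wds g st_W)) 6 ≤ stabilizer (HH Y) (11 : Fin 275) :=
  fixLetters_sound (lf_act (st_act M) sf.1) (by norm_num) sf.2

theorem t81 {x y : Fin 275} (hx : Mc.Adj 0 x ∧ ¬ Mc.Adj 11 x ∧ x ≠ 11) (hy : Mc.Adj 0 y ∧ ¬ Mc.Adj 11 y ∧ y ≠ 11) :
    ∃ h ∈ gen (lf (wds g st_W)) 6, h • x = y :=
  lev l81_ok (lf_act (st_act M) sf.1) l81_c ⟨hx.1, Bool.eq_false_iff.2 hx.2.1, fun e => hx.2.2 (Fin.ext e)⟩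
    ⟨hy.1, Bool.eq_false_iff.2 hy.2.1, fun e => hy.2.2 (Fin.ext e)⟩

theorem fix_p {K : Subgroup (HH Y)} (hK : K.index = 112) (hS : gen (lf (wds g st_W)) 6 ≤ K) :
    K ≤ stabilizer (HH Y) (11 : Fin 275) := by
  have := M.fin
  have cK : Nat.card K = 29160 := by have := K.index_mul_card; rw [hK, cardH M] at this; omega
  have c1 := R3.card_inf (A := K) (11 : Fin 275)
  obtain ⟨t, ht⟩ := Subgroup.card_dvd_of_le (le_inf hS (S_le M))
  rw [lf_card (st_act M) sf.1, (s_pc M).card] at ht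
  have sub : ∀ y ∈ orbit K (11 : Fin 275), Mc.Adj 0 y := by
    rintro _ ⟨h, rfl⟩; exact (hinv0 M h 11).2 cards.2.2.2.2.2.2.2.2.1
  have cl : ∀ {C : Set (Fin 275)}, (∀ x ∈ C, ∀ y ∈ C, ∃ h ∈ gen (lf (wds g st_W)) 6, h • x = y) →
      ∀ x ∈ C, x ∈ orbit K (11 : Fin 275) → C.ncard ≤ (orbit K (11 : Fin 275)).ncard := fun hC x h1 h2 =>
    Set.ncard_le_ncard fun y hy => by
      obtain ⟨h, h3, rfl⟩ := hC x h1 y hy
      exact mapsTo_smul_orbit (⟨h, hS h3⟩ : K) _ h2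
  have d : (orbit K (11 : Fin 275)).ncard ∣ 40 := ⟨t, by
    rw [cK, ht, mul_left_comm] at c1; omega⟩
  have a1 : ∀ y ∈ orbit K (11 : Fin 275), Mc.Adj 11 y ∨ y = 11 := fun y hy => by
    by_contra! n
    have := (cards.2.2.2.1.ge.trans (cl (fun x hx y hy => t81 M hx hy) y ⟨sub y hy, n⟩ hy)).trans
      (Nat.le_of_dvd (by norm_num) d)
    omega
  have a2 : ∀ y ∈ orbit K (11 : Fin 275), y.val ∈ [11, 91, 160, 219] := fun y hy => by
    by_contra n
    have := cl (C := {x | Mc.Adj 0 x ∧ Mc.Adj 11 x ∧ x.val ∉ [11, 91, 160, 219]})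
      (fun x hx y hy => lev l27_ok (lf_act (st_act M) sf.1) l27_c hx hy) y
      ⟨sub y hy, (a1 y hy).resolve_right fun e => n (by rw [e]; decide), n⟩ hy
    have h2 : (orbit K (11 : Fin 275)).ncard ≤ 31 :=
      (Set.ncard_le_ncard (t := insert 11 {x | Mc.Adj 0 x ∧ Mc.Adj 11 x}) fun z hz =>
        (a1 z hz).symm.imp id fun e => ⟨sub z hz, e⟩).trans ((Set.ncard_insert_le _ _).trans (by rw [cards.2.2.1]))
    rw [cards.2.2.2.2.2.2.1] at this
    generalize (orbit K (11 : Fin 275)).ncard = n at *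
    interval_cases n <;> omega
  have a3 : (orbit K (11 : Fin 275)).ncard ≤ 4 := cards.2.2.2.2.2.2.2.1 ▸ Set.ncard_le_ncard a2
  intro h hh
  by_contra n
  have hy : h • (11 : Fin 275) ∈ orbit K (11 : Fin 275) := ⟨⟨h, hh⟩, rfl⟩
  have b1 := (a1 _ hy).resolve_right n
  generalize h • (11 : Fin 275) = y at hy b1
  have c2 := R3.card_inf (A := K ⊓ stabilizer (HH Y) (11 : Fin 275)) y
  have a4 : (orbit (K ⊓ stabilizer (HH Y) (11 : Fin 275) : Subgroup (HH Y)) y).ncard ≤ 4 :=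
    le_trans (Set.ncard_le_ncard (by rintro _ ⟨k, rfl⟩; exact mapsTo_smul_orbit (⟨k.1, k.2.1⟩ : K) _ hy)) a3
  have c3 := R3.card_inf (A := stabilizer (HH Y) (11 : Fin 275)) y
  have a5 : orbit (stabilizer (HH Y) (11 : Fin 275)) y = {x | Mc.Adj 0 x ∧ Mc.Adj 11 x} := by
    ext z
    refine ⟨?_, fun hz => ?_⟩
    · rintro ⟨k, rfl⟩
      exact ⟨(hinv0 M k y).2 (sub y hy), by
        have := (hinv M k 11 y).2 b1
        rwa [show k.1 • (11 : Fin 275) = 11 from k.2] at this⟩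
    · obtain ⟨k, h1, h2⟩ := lev l30_ok (lf_act (k_act M) kf.1) l30_c ⟨sub y hy, b1⟩ hz
      exact ⟨⟨k, fixLetters_sound (lf_act (k_act M) kf.1) (by norm_num) kf.2 k h1⟩, h2⟩
  have c4 := (stabilizer (HH Y) (11 : Fin 275)).index_mul_card
  rw [show (stabilizer (HH Y) (11 : Fin 275)).index = 112 from (O1 M).index cards.2.2.2.2.2.2.2.2.1, cardH M] at c4
  rw [a5, cards.2.2.1] at c3
  obtain ⟨s, hs⟩ := Subgroup.card_dvd_of_le (inf_le_inf_right (stabilizer (HH Y) y)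
    (inf_le_right : K ⊓ stabilizer (HH Y) (11 : Fin 275) ≤ _))
  rw [c2, cK] at c1
  have d5 : 5 ∣ _ * (_ * _) := c1 ▸ (by norm_num : 5 ∣ 29160)
  have p1 := Set.ncard_pos (Set.toFinite _) |>.2 ⟨_, hy⟩
  have p2 := Set.ncard_pos (Set.toFinite _) |>.2
    ⟨_, mem_orbit_self (M := (K ⊓ stabilizer (HH Y) (11 : Fin 275) : Subgroup (HH Y))) y⟩
  rcases (Nat.prime_five.dvd_mul).1 d5 with e | e
  · have := Nat.le_of_dvd p1 e; omega
  rcases (Nat.prime_five.dvd_mul).1 e with e | e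
  · have := Nat.le_of_dvd p2 e; omega
  · have := e.mul_right s
    omega

end H16.McR
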