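import Cfsg.Agent.H16.McR2

/-! Rank 3 recognition of McL: the graph. -/

set_option linter.unusedSectionVars false
set_option maxRecDepth 100000

namespace H16.McR
open MulAction Finset SimpleGraph H0.TR McG
open H15 hiding LO ob ex cnt

/-- the vertex stabiliser acting on a strongly regular graph -/
structure Ok {H Ω : Type*} [Group H] (Γ : SimpleGraph Ω) (a : Ω) (ρ : H →* Equiv.Perm Ω) : Prop where
  inv : ∀ h x y, Γ.Adj (ρ h x) (ρ h y) ↔ Γ.Adj x y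
  o1 : Orb ρ (Γ.Adj a) 112
  o2 : Orb ρ (fun x => ¬ Γ.Adj a x ∧ x ≠ a) 162

theorem bit_iff (m j : ℕ) : bit m j = 1 ↔ m.testBit j = true := by
  show (m >>> j) &&& 1 = 1 ↔ _
  rw [Nat.testBit, Nat.and_comm, Nat.one_and_eq_mod_two]; simp

theorem bit_eq (m j : ℕ) : (bit m j : ℤ) = if bit m j = 1 then 1 else 0 := by
  have : bit m j < 2 := by
    show (m >>> j) &&& 1 < 2
    rw [Nat.and_one_is_mod]; omega
  split_ifs <;> omega

theorem hem_sol {m : ℕ} (hm : m < 65536)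
    (h : ∀ l ∈ LO, bit m l.1 + bit m l.2.1 + (bit m l.2.2.1 + bit m l.2.2.2) = 2) : m ∈ sol := by
  have := hem m hm
  rw [hemEnt, force_eq] at this
  generalize LO = L at h this
  induction L with
  | nil =>
    by_contra n
    rw [decide_eq_false n] at this
    cases this
  | cons l L ih =>
    refine ih (fun l hl => h l (.tail _ hl)) ?_
    have e : Nat.beq _ 2 = true := Nat.beq_eq ▸ h l (.head _)
    exact (congrArg (Bool.rec (motive := fun _ => ℕ) 0 _) e).symm.trans this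

variable {Y : Type*} [Group Y] [MulAction Y (Fin 275)] {g : ℕ → Y} {Ω : Type*} [Fintype Ω] {Γ : SimpleGraph Ω}
  [DecidableRel Γ.Adj] {a : Ω} {ρ : HH Y →* Equiv.Perm Ω} (M : Md g (ptF 275) McL.P 275 6 McL.B 898128000)
  (h : Γ.IsSRGWith 275 112 30 56) (K : Ok Γ a ρ)
include M h K

theorem ex_d : ∃ δ, Eqv ρ (Mc.Adj 0) (Γ.Adj a) δ := by
  have := M.fin
  have := Fact.mk Nat.prime_three
  obtain ⟨b, hb⟩ := Set.nonempty_of_ncard_ne_zero (K.o1.card.trans_ne (by norm_num))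
  obtain ⟨γ, e⟩ := exists_St (ρ := ρ) 3 (IsPGroup.of_card ((lf_card (st_act M) sf.1).trans (s_pc M).card)) b
    (by rw [K.o1.index hb]; norm_num)
  have hb := K.o1.inv γ b hb
  obtain ⟨δ, e, -⟩ := eqv_of (O1 M) K.o1 cards.2.2.2.2.2.2.2.2.1 hb (fix_p M (K.o1.index hb) e)
  exact ⟨δ, e⟩

variable {δ : Fin 275 → Ω} (E : Eqv ρ (Mc.Adj 0) (Γ.Adj a) δ)
include E

theorem adj1 {x y : Fin 275} (hx : Mc.Adj 0 x) (hy : Mc.Adj 0 y) : Mc.Adj x y ↔ Γ.Adj (δ x) (δ y) :=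
  E.adj (O1 M) K.o1 cards.2.2.2.2.2.2.2.2.1 (hinv M) K.inv cards.2.2.1
    (by rw [← srg_adj h (E.mp _ cards.2.2.2.2.2.2.2.2.1), ← Set.ncard_coe_finset]; congr 1; ext; simp)
    (by rw [cards.2.2.2.1]; norm_num) (fun _ _ hx hy => (t81 M hx hy).elim fun k e => ⟨k, S_le M e.1, e.2⟩) hx hy

theorem ex_m : ∃ c, (¬ Γ.Adj a c ∧ c ≠ a) ∧ ∃ m ∈ sol, ∀ y, Mc.Adj 0 y → (Γ.Adj c (δ y) ↔ bit m (ob y) = 1) := by
  have := M.fin
  have := Fact.mk Nat.prime_seven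
  have hx := lf_act (x_act M) xf
  obtain ⟨c, hc⟩ := Set.nonempty_of_ncard_ne_zero (K.o2.card.trans_ne (by norm_num))
  obtain ⟨γ, e⟩ := exists_St (ρ := ρ) 7 (R3.pgroup_comm (q := lf (wds g x_W)) (n := 1)
    (fun i hi j hj => by rw [Nat.lt_one_iff.1 hi, Nat.lt_one_iff.1 hj]) fun i hi => Subtype.ext (by
      rw [Nat.lt_one_iff.1 hi, Subgroup.coe_pow, lf_coe (x_act M) xf one_pos]; exact x7 M)) c
    (by rw [K.o2.index hc]; norm_num)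
  have hc := K.o2.inv γ c hc
  generalize ρ γ c = c at e hc
  have key : ∀ y, Mc.Adj 0 y → (Γ.Adj c (δ y) ↔
      bit (Nat.ofBits fun i : Fin 16 => decide (Γ.Adj c (δ (ptF 275 (rep i))))) (ob y) = 1) := fun y hy => by
    obtain ⟨h1, h2⟩ := obc.2 y y.2 hy
    have w : ∀ k ∈ List.replicate (ex y) 0, k < 1 := fun k hk => by rw [List.eq_of_mem_replicate hk]; norm_num
    have h3 := (hx.apW w (obc.1 _ h1)).2
    rw [h2, ptF_coe] at h3
    rw [bit_iff, Nat.testBit_ofBits_lt _ _ h1, decide_eq_true_iff]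
    conv_lhs => rw [← h3, E.eq _ _ ((hinv0 M _ _).1 (h3.symm ▸ hy)), ← mem_St.1 (e (evA_mem_gen _ w)), K.inv]
  refine ⟨c, hc, _, hem_sol (Nat.ofBits_lt_two_pow _) ?_, key⟩
  generalize Nat.ofBits _ = m at key
  rw [← llc.1]
  intro l hl'
  obtain ⟨⟨p, q, r, s⟩, hl, rfl⟩ := List.mem_map.1 hl'
  obtain ⟨h1, h2⟩ := llc.2 _ hl
  simp only [List.forall_mem_cons, List.pairwise_cons, List.not_mem_nil, false_imp_iff, implies_true, and_true] at h1 h2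
  obtain ⟨⟨p1, p2⟩, ⟨q1, q2⟩, ⟨r1, r2⟩, s1, s2⟩ := h1
  have k : ∀ {y : ℕ} (hy : y < 275), adj 0 y = true → Γ.Adj a (δ ⟨y, hy⟩) ∧ δ ⟨y, hy⟩ ≠ c ∧
      (if Γ.Adj (δ ⟨y, hy⟩) c then (1 : ℤ) else 0) = bit m (ob y) := fun hy e =>
    ⟨E.mp _ e, fun e' => hc.1 (e' ▸ E.mp _ e), by rw [bit_eq]; simp only [← key ⟨_, hy⟩ e, Γ.adj_comm c]⟩
  have := hoffman h (u := ![a, δ ⟨p, p1⟩, δ ⟨q, q1⟩, δ ⟨r, r1⟩, δ ⟨s, s1⟩]) (z := c) (fun i j => by
      have a1 := (k p1 p2).1; have a2 := (k q1 q2).1; have a3 := (k r1 r2).1; have a4 := (k s1 s2).1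
      have b1 := (adj1 M h K E (x := ⟨p, p1⟩) (y := ⟨q, q1⟩) p2 q2).1 h2.1.1
      have b2 := (adj1 M h K E (x := ⟨p, p1⟩) (y := ⟨r, r1⟩) p2 r2).1 h2.1.2.1
      have b3 := (adj1 M h K E (x := ⟨p, p1⟩) (y := ⟨s, s1⟩) p2 s2).1 h2.1.2.2
      have b4 := (adj1 M h K E (x := ⟨q, q1⟩) (y := ⟨r, r1⟩) q2 r2).1 h2.2.1.1
      have b5 := (adj1 M h K E (x := ⟨q, q1⟩) (y := ⟨s, s1⟩) q2 s2).1 h2.2.1.2
      have b6 := (adj1 M h K E (x := ⟨r, r1⟩) (y := ⟨s, s1⟩) r2 s2).1 h2.2.2.1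
      fin_cases i <;> fin_cases j <;> simp [*, a1.symm, a2.symm, a3.symm, a4.symm, b1.symm, b2.symm, b3.symm,
        b4.symm, b5.symm, b6.symm])
    (fun i => by
      fin_cases i
      exacts [hc.2.symm, (k p1 p2).2.1, (k q1 q2).2.1, (k r1 r2).2.1, (k s1 s2).2.1])
  rw [Fin.sum_univ_five] at this
  replace this := (congrArg₂ (· + ·) (congrArg₂ (· + ·) (congrArg₂ (· + ·) (congrArg₂ (· + ·) (if_neg hc.1)
    (k p1 p2).2.2) (k q1 q2).2.2) (k r1 r2).2.2) (k s1 s2).2.2).symm.trans this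
  simp only at this ⊢
  omega

theorem fin {c : Ω} (hc : ¬ Γ.Adj a c ∧ c ≠ a) (hq : ∀ y, Mc.Adj 0 y → (Mc.Adj 167 y ↔ Γ.Adj c (δ y))) :
    Nonempty (Mc ≃g Γ) := by
  classical
  have := M.fin
  have cr : ∀ (k : HH Y) y, Mc.Adj 0 y → (Mc.Adj (k • 167) y ↔ Γ.Adj (ρ k c) (δ y)) := fun k y hy => by
    obtain ⟨y, rfl⟩ := MulAction.surjective k y
    have := (hinv0 M k y).1 hy
    rw [hinv M, E.eq k y this, K.inv, hq y this]
  have q0 : ¬ Mc.Adj 0 167 ∧ (167 : Fin 275) ≠ 0 := ⟨cards.2.2.2.2.2.2.2.2.2, by decide⟩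
  obtain ⟨ε, F, e⟩ := eqv_of (O2 M) K.o2 q0 hc fun k hk => Fin.ext (qc _ (k • (167 : Fin 275)).2
    (Bool.eq_false_iff.2 ((O2 M).inv k _ q0).1) fun y h1 h2 => Bool.eq_iff_iff.2
      ((cr k ⟨y, h1⟩ h2).trans (by rw [mem_St.1 hk]; exact (hq ⟨y, h1⟩ h2).symm)))
  have a2 : ∀ x y, ¬ Mc.Adj 0 x ∧ x ≠ 0 → ¬ Mc.Adj 0 y ∧ y ≠ 0 → (Mc.Adj x y ↔ Γ.Adj (ε x) (ε y)) := fun x y =>
    F.adj (O2 M) K.o2 q0 (hinv M) K.inv cards.2.2.2.2.1 (by
      have h1 := card_filter_add_card_filter_not (s := univ.filter (Γ.Adj c)) (Γ.Adj a)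
      rw [srg_deg h, filter_filter, srg_nadj h hc.2 fun e => hc.1 e.symm] at h1
      rw [e, ← Nat.add_left_cancel (h1.trans (by norm_num : 112 = 56 + 56)), ← Set.ncard_coe_finset]
      congr 1; ext z
      simpa using ⟨fun h => ⟨h.2, h.1.1⟩, fun h => ⟨⟨h.2, fun e => hc.1 (e ▸ h.1.symm)⟩, h.1⟩⟩)
      (by rw [cards.2.2.2.2.2.1]; norm_num) fun x y hx hy => by
        have t : ∀ x : Fin 275, (¬ Mc.Adj 0 x ∧ x ≠ 0) ∧ ¬ Mc.Adj 167 x ∧ x ≠ 167 →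
            (adj 0 x = false ∧ x.val ≠ 0) ∧ adj 167 x = false ∧ x.val ≠ 167 := fun x hx =>
          ⟨⟨Bool.eq_false_iff.2 hx.1.1, fun e => hx.1.2 (Fin.ext e)⟩, Bool.eq_false_iff.2 hx.2.1,
            fun e => hx.2.2 (Fin.ext e)⟩
        obtain ⟨k, h1, h2⟩ := lev l105_ok (lf_act (n_act M) nf.1) l105_c (t x hx) (t y hy)
        exact ⟨k, fixLetters_sound (lf_act (n_act M) nf.1) (by norm_num) nf.2 k h1, h2⟩
  have a3 : ∀ x y, ¬ Mc.Adj 0 x ∧ x ≠ 0 → Mc.Adj 0 y → (Mc.Adj x y ↔ Γ.Adj (ε x) (δ y)) := fun x y hx hy => by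
    obtain ⟨k, rfl⟩ := (O2 M).tr _ x q0 hx
    rw [toPermHom_apply, toPerm_apply, cr k y hy, F.eq k _ q0, e]
  let θ : Fin 275 → Ω := fun x => if x = 0 then a else if Mc.Adj 0 x then δ x else ε x
  have t0 : θ 0 = a := if_pos rfl
  have t1 : ∀ x, Mc.Adj 0 x → θ x = δ x := fun x hx => (if_neg hx.ne').trans (if_pos hx)
  have t2 : ∀ x, ¬ Mc.Adj 0 x ∧ x ≠ 0 → θ x = ε x := fun x hx => (if_neg hx.2).trans (if_neg hx.1)
  have tri : ∀ x : Fin 275, x = 0 ∨ Mc.Adj 0 x ∨ ¬ Mc.Adj 0 x ∧ x ≠ 0 := fun x => by tauto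
  have sj : Function.Surjective θ := fun z => by
    by_cases h1 : z = a
    · exact ⟨0, t0.trans h1.symm⟩
    by_cases h2 : Γ.Adj a z
    · obtain ⟨x, hx, rfl⟩ := (E.bij (O1 M) K.o1 cards.2.2.2.2.2.2.2.2.1).surjOn h2
      exact ⟨x, t1 x hx⟩
    · obtain ⟨x, hx, rfl⟩ := (F.bij (O2 M) K.o2 q0).surjOn ⟨h2, h1⟩
      exact ⟨x, t2 x hx⟩
  have a0 : ∀ x, Γ.Adj a (θ x) ↔ Mc.Adj 0 x := fun x => by
    rcases tri x with rfl | hx | hx
    · simp [t0]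
    · exact iff_of_true (t1 x hx ▸ E.mp x hx) hx
    · exact iff_of_false (t2 x hx ▸ (F.mp x hx).1) hx.1
  refine ⟨⟨Equiv.ofBijective θ ((Fintype.bijective_iff_surjective_and_card θ).2 ⟨sj, by simp [h.card]⟩),
    fun {x y} => ?_⟩⟩
  show Γ.Adj (θ x) (θ y) ↔ _
  rcases tri x with rfl | hx | hx
  · rw [t0, a0]
  all_goals rcases tri y with rfl | hy | hy
  · rw [t0, adj_comm, a0, adj_comm]
  · rw [t1 x hx, t1 y hy, adj1 M h K E hx hy]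
  · rw [t1 x hx, t2 y hy, adj_comm, ← a3 y x hy hx, adj_comm]
  · rw [t0, adj_comm, a0, adj_comm]
  · rw [t2 x hx, t1 y hy, a3 x y hx hy]
  · rw [t2 x hx, t2 y hy, a2 x y hx hy]

theorem twist {w : ℕ → Y} {P : ℕ → ℕ → ℕ} (hw : Act w (ptF 275) P 275 9) (hf : fixLetters P 9 0 = true)
    (hr : Rels w U43.Rl) (hn : w 0 ^ 1 ≠ 1) {τ : ℕ → ℕ} {m : ℕ}
    (hc : ∀ j < 275, adj 0 j = true → (τ j < 275 ∧ adj 0 (τ j) = true ∧ (adj 167 j = true ↔ bit m (ob (τ j)) = 1)) ∧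
      ∀ k < 9, τ (v_P k j) = P k (τ j)) {c : Ω} (h1 : ¬ Γ.Adj a c ∧ c ≠ a)
    (h2 : ∀ y, Mc.Adj 0 y → (Γ.Adj c (δ y) ↔ bit m (ob y) = 1)) : Nonempty (Mc ≃g Γ) := by
  obtain ⟨tv, e1, h3⟩ := iso M (v_act M) vf (vr M) (vn M)
  obtain ⟨-, e2, h4⟩ := iso M hw hf hr hn
  have t0 : ∀ x : Fin 275, Mc.Adj 0 x → Mc.Adj 0 (ptF 275 (τ x)) := fun x hx =>
    (mc_pt (by norm_num : 0 < 275) (hc x x.2 hx).1.1).2 (hc x x.2 hx).1.2.1
  have t1 : ∀ k : HH Y, ∀ x : Fin 275, Mc.Adj 0 x → ptF 275 (τ (k • x).val) = (e1.symm.trans e2) k • ptF 275 (τ x) := by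
    intro k
    have : k ∈ gen (lf (wds g v_W)) 9 := tv ▸ trivial
    induction this using Subgroup.closure_induction with
    | mem k hk =>
      obtain ⟨k, hk, rfl⟩ := hk
      intro x hx
      obtain ⟨a1, a2⟩ := lf_act (v_act M) vf k hk x x.2
      rw [ptF_coe] at a2
      rw [a2, ptF_val a1, ← h3 k hk, MulEquiv.trans_apply, e1.symm_apply_apply, h4 k hk, (hc x x.2 hx).2 k hk,
        (lf_act hw hf k hk _ (hc x x.2 hx).1.1).2]
    | one => simp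
    | mul k l _ _ ik il => exact fun x hx => by rw [mul_smul, ik _ ((hinv0 M _ _).2 hx), il x hx, map_mul, mul_smul]
    | inv k _ ik =>
      intro x hx
      have := ik _ ((hinv0 M k⁻¹ x).2 hx)
      rw [smul_inv_smul] at this
      rw [this, map_inv, inv_smul_smul]
  refine fin M h (ρ := ρ.comp (e1.symm.trans e2).toMonoidHom) (δ := fun x => δ (ptF 275 (τ x)))
    ⟨fun k => K.inv _, K.o1.comp _, K.o2.comp _⟩ ⟨fun x hx => E.mp _ (t0 x hx), fun k x hx => ?_⟩ h1 fun y hy => ?_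
  · rw [t1 k x hx, E.eq _ _ (t0 x hx)]; rfl
  · rw [h2 _ (t0 y hy), ptF_val (hc y y.2 hy).1.1]; exact (hc y y.2 hy).1.2.2

omit E in
theorem graph_iso : Nonempty (Mc ≃g Γ) := by
  obtain ⟨δ, E⟩ := ex_d M h K
  obtain ⟨c, h1, m, hm, h2⟩ := ex_m M h K E
  simp only [sol, List.mem_cons, List.not_mem_nil, or_false] at hm
  rcases hm with rfl | rfl | rfl | rfl
  exacts [twist M h K E (w0_act M) w0f (w0r M) (w0n M) w0c h1 h2, twist M h K E (w1_act M) w1f (w1r M) (w1n M) w1c h1 h2,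
    twist M h K E (w2_act M) w2f (w2r M) (w2n M) w2c h1 h2, twist M h K E (w3_act M) w3f (w3r M) (w3n M) w3c h1 h2]

omit E h K [Fintype Ω] [DecidableRel Γ.Adj]
omit M in
theorem aut_le : Nat.card (Mc ≃g Mc) ≤ 2 * 898128000 := by
  let A : List ℕ → Subgroup (Mc ≃g Mc) := fun F => ⨅ u : Fin 275, ⨅ _ : u.val ∈ F, stabilizer _ u
  have mA : ∀ F φ, φ ∈ A F ↔ ∀ u : Fin 275, u.val ∈ F → φ u = u := fun F φ => by
    simp only [A, Subgroup.mem_iInf]; rfl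
  have k : ∀ F φ, φ ∈ A F → (∀ u ∈ F, u < 275) → ∀ v : Fin 275,
      (∀ u ∈ F, adj u (φ v) = adj u v) ∧ ((φ v).val ∈ F → φ v = v) := fun F φ h hF v =>
    ⟨fun u hu => Bool.eq_iff_iff.2 (by
      have := φ.map_rel_iff (a := ⟨u, hF u hu⟩) (b := v)
      rwa [(mA F φ).1 h ⟨u, hF u hu⟩ hu] at this), fun e => φ.injective ((mA F φ).1 h _ e)⟩
  have c : ∀ (F : List ℕ) (v : Fin 275) φ, φ ∈ A (v.val :: F) ↔ φ ∈ A F ∧ φ v = v := fun F v φ => by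
    simp only [mA, List.mem_cons]
    exact ⟨fun h => ⟨fun u hu => h u (.inr hu), h v (.inl rfl)⟩, fun h u hu => hu.elim
      (fun e => Fin.ext e ▸ h.2) (h.1 u)⟩
  have st : ∀ (F : List ℕ) (v : ℕ), (v < 275 ∧ v ∉ F ∧ ∀ u ∈ F, u < 275) →
      Nat.card (A F) ≤ cnt F v * Nat.card (A (v :: F)) := fun F v h => by
    rw [R3.card_inf (A := A F) (⟨v, h.1⟩ : Fin 275), show A (v :: F) = A F ⊓ stabilizer _ (⟨v, h.1⟩ : Fin 275) from
      Subgroup.ext (c F ⟨v, h.1⟩), cnt, ← Set.ncard_coe_finset]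
    refine Nat.mul_le_mul_right _ (Set.ncard_le_ncard ?_)
    rintro _ ⟨φ, rfl⟩
    obtain ⟨h1, h2⟩ := k F φ φ.2 h.2.2 ⟨v, h.1⟩
    exact mem_coe.2 (mem_filter.2 ⟨mem_univ _, h1, fun e => h.2.1 (congrArg Fin.val (h2 e) ▸ e :)⟩)
  have ch : ∀ N F : List ℕ, chain F N = true → (∀ u ∈ F, u < 275) →
      A F ≤ A (N.reverse ++ F) ∧ ∀ u ∈ N.reverse ++ F, u < 275 := fun N => by
    induction N with
    | nil => exact fun F _ h => ⟨le_rfl, h⟩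
    | cons v N ih =>
      intro F h hF
      have h : (decide (v < 275) && decide (Fx F v) && chain (v :: F) N) = true := h
      simp only [Bool.and_eq_true, decide_eq_true_eq] at h
      obtain ⟨h1, h2⟩ := ih _ h.2 (List.forall_mem_cons.2 ⟨h.1.1, hF⟩)
      rw [List.reverse_cons, List.append_assoc]
      refine ⟨le_trans (fun φ hφ => (c F ⟨v, h.1.1⟩ φ).2 ⟨hφ, ?_⟩) h1, h2⟩
      obtain ⟨h3, h4⟩ := k F φ hφ hF ⟨v, h.1.1⟩
      exact (h.1.2 _ (Fin.is_lt _) h3).elim (fun e => Fin.ext e) h4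
  obtain ⟨a0, b0⟩ := ch0.2 ▸ ch _ _ ch0.1 (by decide)
  obtain ⟨a1, b1⟩ := ch1.2 ▸ ch _ _ ch1.1 b0
  obtain ⟨a2, b2⟩ := ch2.2 ▸ ch _ _ ch2.1 b1
  obtain ⟨a3, -⟩ := ch3.2 ▸ ch _ _ ch3.1 b2
  have z : A F0 = ⊥ := eq_bot_iff.2 fun φ hφ => RelIso.ext fun u => (mA _ φ).1 (a3 (a2 (a1 (a0 hφ)))) u (chz u u.2)
  have s0 := st [] 0 (by decide)
  have s1 := st [0] 11 (by decide)
  have s2 := st [11, 0] 16 (by decide)
  have s3 := st [16, 11, 0] 93 (by decide)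
  have s4 := st [93, 16, 11, 0] 96 (by decide)
  have s5 := st [96, 93, 16, 11, 0] 99 (by decide)
  obtain ⟨c0, c1, c2, c3, c4, c5⟩ := cc
  rw [show A [99, 96, 93, 16, 11, 0] = ⊥ from z, Subgroup.card_bot, c5] at s5
  rw [show A [] = ⊤ from eq_top_iff.2 fun φ _ => (mA _ φ).2 fun _ h => (List.not_mem_nil h).elim, Subgroup.card_top, c0] at s0
  rw [c1] at s1; rw [c2] at s2; rw [c3] at s3; rw [c4] at s4
  omega

theorem iso_of_aut [IsSimpleGroup Y] {G : Type*} [Group G] (ψ : G →* (Mc ≃g Mc)) (h : Function.Injective ψ)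
    (c : Nat.card G = 898128000) : Nonempty (G ≃* Y) := by
  have i : Function.Injective (autHom Mc (mc_inv M)) := (injective_iff_map_eq_one _).2 fun y e =>
    M.base y trivial fun i _ => congrArg (fun φ : Mc ≃g Mc => φ (ptF 275 i)) e
  obtain ⟨t, ht⟩ := Subgroup.card_dvd_of_injective _ i
  have h1 := aut_le
  have : Finite (Mc ≃g Mc) := Finite.of_injective _ RelIso.toEquiv_injective
  have h2 : 0 < Nat.card (Mc ≃g Mc) := Nat.card_pos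
  rw [M.card] at ht
  obtain rfl | rfl : t = 1 ∨ t = 2 := by omega
  · exact ⟨(MulEquiv.ofBijective ψ ((Nat.bijective_iff_injective_and_card _).2 ⟨h, by omega⟩)).trans
      (MulEquiv.ofBijective _ ((Nat.bijective_iff_injective_and_card _).2 ⟨i, by rw [M.card]; omega⟩)).symm⟩
  · exact iso_of_index_two ψ _ h i (by omega) (c.trans M.card.symm) (by rw [M.card]; norm_num)

end H16.McR
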