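import Cfsg.Agent.H6.PS0

/-! The Praeger-Saxl bound: numerics for the imprimitive stabilizer. -/

set_option autoImplicit false
set_option maxRecDepth 100000

namespace H16.PS
open H6.PS

/-- the test for small blocks -/
def cna (s b j : ℕ) : Bool :=
  Nat.ble (s.factorial ^ 2 * (b ^ 2 * aa s b) ^ j * 2 ^ ej s b j) (2 ^ (2 + 577 * (s * b) / 200))

theorem na_ok : ((List.range 30).all fun b => (List.range (9 * b + 11)).all fun s =>
    Nat.blt ((s + 2) * (b + 2)) 20 || (List.range 7).any (cna (s + 2) (b + 2))) = true := by decide +kernel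

theorem sq_le (b : ℕ) : b ^ 2 ≤ 2 ^ (b + 1) := by
  induction b with
  | zero => simp
  | succ b ih => have := b.lt_two_pow_self; rw [pow_succ 2 (b + 1), pow_succ 2 b] at *; nlinarith

theorem e81 (k : ℕ) (h : 4 ≤ k) : 81 * (5 * k + 4) ^ 2 ≤ 2 ^ (4 * k) := by
  induction k, h using Nat.le_induction with
  | base => norm_num
  | succ k h ih => rw [Nat.mul_succ 4, pow_add]; nlinarith

theorem eL (L : ℕ) (h : 5 ≤ L) : 200 * ((L + 1) * (L + 5)) ≤ 377 * 2 ^ L := by
  induction L, h using Nat.le_induction with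
  | base => norm_num
  | succ k h ih => rw [pow_succ]; nlinarith

theorem ej_le (s b j : ℕ) : ej s b j * s ^ j ≤ s * b * (b - 1) := by
  induction j with
  | zero => exact (mul_one _).le
  | succ j ih =>
    refine le_trans ?_ ih
    rw [pow_succ', ← mul_assoc]
    refine Nat.mul_le_mul_right _ ?_
    rcases Nat.eq_zero_or_pos b with rfl | hb
    · show ej s 0 j * (0 - 2) / (s * 0) * s ≤ _
      simp
    · refine Nat.le_of_mul_le_mul_right ?_ hb
      rw [mul_assoc]
      exact (Nat.div_mul_le_self _ _).trans (Nat.mul_le_mul_left _ (by omega))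

/-- one round suffices when the blocks are small -/
theorem one {s b Q c : ℕ} (hs : 2 ≤ s) (hb : 2 ≤ b) (hQ : Q ^ 2 ≤ 2 ^ c)
    (h : 200 * (c + s * b + b * b + 2) ≤ 577 * (s * b) + 200 * (s + 3 * b)) :
    Q ^ 2 * (b ^ 2 * aa s b) ^ 1 * 2 ^ ej s b 1 ≤ 2 ^ (2 + 577 * (s * b) / 200) := by
  have e : ej s b 1 = (b - 1) * (b - 2) := by
    show s * b * (b - 1) * (b - 2) / (s * b) = _
    rw [mul_assoc (s * b), Nat.mul_div_cancel_left _ (by positivity)]
  rw [e, pow_one]
  refine (Nat.mul_le_mul_right _ (Nat.mul_le_mul hQ (Nat.mul_le_mul (sq_le b) (min_le_right _ _)))).trans ?_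
  rw [← pow_add, ← pow_add, ← pow_add]
  refine Nat.pow_le_pow_right two_pos ?_
  obtain ⟨s, rfl⟩ := Nat.exists_eq_add_of_le' hs
  obtain ⟨b, rfl⟩ := Nat.exists_eq_add_of_le' hb
  have : c + (b + 1 + (s + 1) * (b + 1)) + (b + 1) * b ≤ 577 * ((s + 2) * (b + 2)) / 200 :=
    (Nat.le_div_iff_mul_le (by norm_num)).2 (by nlinarith)
  simp only [Nat.add_succ_sub_one, Nat.add_sub_cancel]
  omega

theorem na : NA := fun s b Q hs hb h20 hQ h => by
  by_cases c1 : b ≤ s ∧ Q ≤ 4 ^ s
  · refine ⟨1, one (c := 4 * s) hs hb ((Nat.pow_le_pow_left c1.2 2).trans_eq (by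
      rw [← pow_mul, show 4 = 2 ^ 2 from rfl, ← pow_mul]; congr 1; ring)) ?_⟩
    obtain rfl | rfl | k : b = 2 ∨ b = 3 ∨ 4 ≤ b := by omega
    · omega
    · omega
    · nlinarith [Nat.mul_le_mul_right b c1.1, Nat.mul_le_mul_left s k]
  have h9 : s + 6 ≤ 9 * b := h.elim (fun k => by have := not_and.1 c1; omega) id
  by_cases c2 : b < 32
  · have a := List.all_eq_true.1 (List.all_eq_true.1 na_ok (b - 2) (List.mem_range.2 (by omega))) (s - 2)
      (List.mem_range.2 (by omega))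
    rw [Nat.sub_add_cancel hs, Nat.sub_add_cancel hb, Bool.or_eq_true, Nat.blt_eq] at a
    obtain ⟨j, -, e⟩ := List.any_eq_true.1 (a.resolve_left (by omega))
    exact ⟨j, le_trans (by gcongr) (Nat.ble_eq.mp e)⟩
  have f : Q ≤ s ^ s := hQ.trans s.factorial_le_pow
  by_cases c3 : b ≤ s
  · have a := e81 (b / 5) (by omega)
    refine ⟨1, one (c := 4 * (b / 5) * s) hs hb ?_ ?_⟩
    · rw [pow_mul]
      refine (Nat.pow_le_pow_left f 2).trans ?_
      rw [← pow_mul, mul_comm s, pow_mul]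
      refine Nat.pow_le_pow_left (le_trans ?_ a) s
      have : s ≤ 9 * (5 * (b / 5) + 4) := by omega
      nlinarith
    · have : 5 * (b / 5) * s ≤ b * s := Nat.mul_le_mul_right _ (by omega)
      nlinarith [Nat.mul_le_mul_right b c3]
  have l1 := Nat.pow_log_le_self s (show b ≠ 0 by omega)
  have l2 := Nat.lt_pow_succ_log_self (show 1 < s by omega) b
  have l3 := Nat.pow_log_le_self 2 (show b ≠ 0 by omega)
  have l4 := Nat.lt_pow_succ_log_self one_lt_two b
  have l5 : Nat.log s b ≤ Nat.log 2 b := Nat.log_anti_left one_lt_two hs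
  have l6 : 5 ≤ Nat.log 2 b := Nat.le_log_of_pow_le one_lt_two (by omega)
  generalize Nat.log s b = j at *
  generalize Nat.log 2 b = L at *
  have sb : s ≤ b := by omega
  have e1 : ej s b (j + 1) ≤ s * b := Nat.le_of_mul_le_mul_right ((ej_le s b (j + 1)).trans
    (Nat.mul_le_mul_left _ ((Nat.sub_le b 1).trans l2.le))) (by positivity)
  have e2 : aa s b ≤ s ^ (2 * (s - 1)) := (min_le_left _ _).trans (by
    rw [mul_comm, pow_mul]
    exact Nat.pow_le_pow_left ((s - 1).factorial_le_pow.trans (Nat.pow_le_pow_left (by omega) _)) 2)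
  have e3 : aa s b ^ (j + 1) ≤ b ^ (4 * (s - 1)) := by
    refine (Nat.pow_le_pow_left e2 _).trans ?_
    rw [← pow_mul, mul_comm, pow_mul, show 4 * (s - 1) = 2 * (2 * (s - 1)) by ring, pow_mul b]
    exact Nat.pow_le_pow_left (by rw [pow_succ, sq]; exact Nat.mul_le_mul l1 sb) _
  have e4 : Q ^ 2 ≤ b ^ (2 * s) := by
    rw [mul_comm, pow_mul]; exact Nat.pow_le_pow_left (f.trans (Nat.pow_le_pow_left sb s)) 2
  refine ⟨j + 1, ?_⟩
  rw [mul_pow, ← pow_mul]
  refine (Nat.mul_le_mul (Nat.mul_le_mul e4 (Nat.mul_le_mul_left _ e3)) (Nat.pow_le_pow_right two_pos e1)).trans ?_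
  rw [← pow_add, ← pow_add]
  refine (Nat.mul_le_mul_right _ (Nat.pow_le_pow_left l4.le _)).trans ?_
  rw [← pow_mul, ← pow_add]
  refine Nat.pow_le_pow_right two_pos (le_add_left ((Nat.le_div_iff_mul_le (by norm_num)).2 ?_))
  have a := Nat.mul_le_mul_left s ((eL L l6).trans (Nat.mul_le_mul_left _ l3))
  obtain ⟨s, rfl⟩ := Nat.exists_eq_add_of_le' hs
  have a2 : 2 * (s + 2) + (2 * (j + 1) + 4 * (s + 1)) ≤ (s + 2) * (L + 5) := by nlinarith
  have a3 := Nat.mul_le_mul_left (L + 1) a2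
  simp only [Nat.add_succ_sub_one, Nat.succ_eq_add_one]
  nlinarith

end H16.PS
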