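import Cfsg.Agent.H6.PS0
import Mathlib.NumberTheory.Bertrand
import Mathlib.Analysis.Complex.ExponentialBounds

/-! The Praeger-Saxl bound: numerics for the degree of transitivity. -/

set_option autoImplicit false
set_option maxRecDepth 100000

namespace H16.PS
open H6.PS

/-- multipliers and primes for the small degrees -/
def TB : List (ℕ × ℕ) := [(1, 3221), (1, 3049), (1, 2887), (1, 2731), (1, 2579), (1, 2437), (2, 1151), (2, 1087), (1, 2053), (2, 967),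
  (1, 1823), (1, 1721), (1, 1619), (1, 1523), (1, 1433), (2, 673), (3, 421), (1, 1193), (3, 373), (1, 1049), (1,
  983), (2, 463), (2, 433), (1, 811), (2, 379), (1, 709), (2, 331), (2, 311), (3, 193), (1, 541), (1, 503), (3,
  157), (1, 443), (3, 137), (2, 193), (2, 179), (1, 331), (1, 307), (1, 283), (2, 131), (1, 241), (1, 229), (1,
  211), (2, 97), (2, 89), (1, 163), (1, 151), (1, 139), (3, 43), (2, 59), (1, 107), (1, 97), (1, 89), (2, 41),
  (2, 37), (1, 67), (2, 31), (1, 59), (1, 53), (3, 17), (1, 47), (1, 43), (2, 19), (2, 17), (1, 31), (1, 29),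
  (2, 13), (1, 23), (2, 11), (1, 19)]

theorem TB_prime : ∀ x ∈ TB, x.2.Prime := by
  simp only [TB, List.forall_mem_cons]
  norm_num

/-- the test for one degree -/
def cnd (n : ℕ) (x : ℕ × ℕ) : Bool := Nat.blt (x.1 * x.2 + x.1) n && (Nat.ble 1 x.1 && Nat.blt x.1 x.2 &&
  !(Nat.beq x.1 1 && Nat.beq (n - x.1 * x.2) 2) && Nat.ble 19 (x.1 * x.2) &&
  Nat.ble (n.descFactorial (n - x.1 * x.2 - 1) * 2 * 68 ^ (n + 1 - (n - x.1 * x.2))) (4 ^ n * 25 ^ (n + 1 - (n - x.1 * x.2))))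

theorem TB_ok : ((List.range 3342).all fun i => TB.any (cnd (i + 22))) = true := by decide +kernel

theorem exp_le (m : ℕ) : Real.exp m ≤ (68 / 25) ^ m := by
  rw [← Real.exp_one_pow]
  exact pow_le_pow_left₀ (Real.exp_pos 1).le (Real.exp_one_lt_d9.le.trans (by norm_num)) m

theorem grow (m : ℕ) (h : 58 ≤ m) : 2 * (25 * ((m : ℝ) + 1) ^ 2 / 68) ^ 3 ≤ (25 / 17) ^ m := by
  induction m, h using Nat.le_induction with
  | base => norm_num
  | succ m h ih =>
    have h1 : (58 : ℝ) ≤ m := by exact_mod_cast h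
    have h2 : (m : ℝ) + 1 + 1 ≤ 21 / 20 * (m + 1) := by linarith
    have h3 := pow_le_pow_left₀ (by positivity) h2 6
    rw [pow_succ (25 / 17 : ℝ) m]
    push_cast
    have h4 : (0 : ℝ) ≤ (m + 1) ^ 6 := by positivity
    rw [mul_pow] at h3
    calc _ = 2 * (25 / 68) ^ 3 * ((m : ℝ) + 1 + 1) ^ 6 := by ring
      _ ≤ 2 * (25 / 68) ^ 3 * (25 / 17 * ((m : ℝ) + 1) ^ 6) := by gcongr; nlinarith
      _ = 2 * (25 * ((m : ℝ) + 1) ^ 2 / 68) ^ 3 * (25 / 17) := by ring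
      _ ≤ _ := by gcongr

theorem big {n m a : ℕ} (h : 58 ≤ m) (h1 : m * m ≤ n) (h2 : n ≤ (m + 1) ^ 2) (h3 : a ≤ 3 * m) :
    (n.descFactorial a : ℝ) * (2 * Real.exp ((n - a : ℕ) : ℝ)) ≤ 4 ^ n := by
  have hm : (58 : ℝ) ≤ m := by exact_mod_cast h
  have an : a ≤ n := by nlinarith
  have y1 : (1 : ℝ) ≤ 25 * ((m : ℝ) + 1) ^ 2 / 68 := by nlinarith
  have xy : 25 * (n : ℝ) / 68 ≤ 25 * ((m : ℝ) + 1) ^ 2 / 68 := by
    have : (n : ℝ) ≤ ((m : ℝ) + 1) ^ 2 := by exact_mod_cast h2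
    linarith
  have k1 : (25 * (n : ℝ) / 68) ^ a ≤ ((25 * ((m : ℝ) + 1) ^ 2 / 68) ^ 3) ^ m := by
    rw [← pow_mul]
    exact (pow_le_pow_left₀ (by positivity) xy a).trans (pow_le_pow_right₀ y1 h3)
  have k2 : 2 * ((25 * ((m : ℝ) + 1) ^ 2 / 68) ^ 3) ^ m ≤ (25 / 17) ^ n := by
    calc _ ≤ 2 ^ m * ((25 * ((m : ℝ) + 1) ^ 2 / 68) ^ 3) ^ m := by
          gcongr; exact le_self_pow₀ one_le_two (by omega)
      _ ≤ ((25 / 17) ^ m) ^ m := by rw [← mul_pow]; exact pow_le_pow_left₀ (by positivity) (grow m h) m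
      _ ≤ _ := by rw [← pow_mul]; exact pow_le_pow_right₀ (by norm_num) h1
  have d : (n.descFactorial a : ℝ) ≤ (n : ℝ) ^ a := by exact_mod_cast n.descFactorial_le_pow a
  obtain ⟨c, rfl⟩ := Nat.exists_eq_add_of_le an
  rw [Nat.add_sub_cancel_left]
  calc _ ≤ ((a + c : ℕ) : ℝ) ^ a * (2 * (68 / 25) ^ c) := by gcongr; exact exp_le c
    _ = 2 * (25 * ((a + c : ℕ) : ℝ) / 68) ^ a * (68 / 25) ^ (a + c) := by
      rw [pow_add, show ((a + c : ℕ) : ℝ) ^ a = (25 * ((a + c : ℕ) : ℝ) / 68 * (68 / 25)) ^ a by congr 1; ring, mul_pow]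
      ring
    _ ≤ (25 / 17) ^ (a + c) * (68 / 25) ^ (a + c) := by gcongr; linarith
    _ = _ := by rw [← mul_pow]; norm_num

theorem nb : NB := fun n hn => by
  by_cases c : n < 3364
  · have := List.all_eq_true.1 TB_ok (n - 22) (List.mem_range.2 (by omega))
    rw [Nat.sub_add_cancel hn] at this
    obtain ⟨⟨k, p⟩, hx, e⟩ := List.any_eq_true.1 this
    simp only [cnd, Bool.and_eq_true, Nat.blt_eq, Nat.ble_eq, Bool.not_eq_true', Nat.beq_eq,
      ← Bool.not_eq_true] at e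
    obtain ⟨e1, ⟨⟨⟨e2, e3⟩, e4⟩, e5⟩, e6⟩ := e
    refine ⟨k, p, n - k * p, TB_prime _ hx, by omega, e2, e3, by omega, by omega, by omega, ?_⟩
    generalize n + 1 - (n - k * p) = c at e6 ⊢
    have e7 : (n.descFactorial (n - k * p - 1) : ℝ) * 2 * 68 ^ c ≤ 4 ^ n * 25 ^ c := by exact_mod_cast e6
    calc _ ≤ (n.descFactorial (n - k * p - 1) : ℝ) * (2 * (68 / 25) ^ c) := by gcongr; exact exp_le c
      _ ≤ _ := by rw [div_pow, ← mul_assoc, ← mul_div_assoc, div_le_iff₀ (by positivity)]; exact e7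
  · have h1 := Nat.sqrt_le n
    have h2 := Nat.lt_succ_sqrt n
    have h : 58 ≤ n.sqrt := Nat.le_sqrt.2 (by omega)
    generalize n.sqrt = m at *
    obtain ⟨p, hp, p1, p2⟩ := Nat.exists_prime_lt_and_le_two_mul m (by omega)
    have a1 := Nat.div_mul_le_self (n - 1) (p + 1)
    have a2 := Nat.lt_div_mul_add (a := n - 1) (b := p + 1) (by omega)
    generalize (n - 1) / (p + 1) = k at *
    have a0 : n - 1 + 1 = n := by omega
    generalize n - 1 = n' at *
    have km : k ≤ m := by by_contra! q; nlinarith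
    have k2 : 2 ≤ k := by by_contra! q; nlinarith
    obtain ⟨r, hr⟩ : ∃ r, n = k * p + (r + 1) := ⟨n - k * p - 1, by rw [Nat.mul_succ] at a1; omega⟩
    rw [Nat.mul_succ] at a1 a2
    refine ⟨k, p, r + 1, hp, hr, by omega, by omega, by omega, by omega, by nlinarith, ?_⟩
    rw [Nat.add_sub_cancel, Nat.add_sub_add_right]
    exact big h h1 (by rw [sq]; exact h2.le) (by omega)

end H16.PS
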