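import Cfsg.Agent.H0.TRX
import Cfsg.Agent.H0.TRP
import Cfsg.Agent.H16.Tab2

/-! Overgroups of a Sylow `3`-subgroup of order `3^6`: the subgroups `U₄(3)` of `U₆(2)`. -/

set_option linter.unusedSectionVars false

namespace H16.SU6
open Subgroup H0.TR
open scoped commutatorElement

variable {G : Type*} [Group G] {t F s : ℕ → G}

/-- the normal forms -/
def allW (p : ℕ) (j : ℕ) : List (List ℕ) :=
  Nat.rec [[]] (fun j ih => (List.range p).flatMap fun e => ih.map (· ++ List.replicate e j)) j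

theorem exists_allW [Finite G] {n p : ℕ} (h : PC0 t n p) : ∀ {j : ℕ}, j ≤ n → ∀ u ∈ gen t j, ∃ W ∈ allW p j, u = evA t W
  | 0, _, u, hu => ⟨[], List.mem_singleton_self _, by rwa [gen_zero] at hu⟩
  | j + 1, hj, u, hu => by
    obtain ⟨e, he, h1⟩ := h.dec hj hu
    obtain ⟨W, hW, h2⟩ := exists_allW h (Nat.le_of_succ_le hj) _ h1
    exact ⟨_, List.mem_flatMap.2 ⟨e, List.mem_range.2 he, List.mem_map_of_mem hW⟩, by
      rw [evA_append, evA_rep, ← h2, mul_inv_cancel_left]⟩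

/-- the shared local data -/
structure SD (t : ℕ → G) : Prop where
  c6 : Nat.card (gen t 6) = 729
  c4 : Nat.card (gen t 4) = 81
  jc : ∀ a < 4, ∀ b < 4, t a * t b = t b * t a
  nm : ∀ k < 7, ∀ j < 4, t k * t j * (t k)⁻¹ ∈ gen t 4

theorem SD.map {H : Type*} [Group H] (h : SD t) {f : G →* H} (hf : Function.Injective f) : SD fun k => f (t k) :=
  ⟨by rw [← map_gen, card_map_of_injective hf, h.c6], by rw [← map_gen, card_map_of_injective hf, h.c4],
    fun a ha b hb => by rw [← map_mul, h.jc a ha b hb, map_mul], fun k hk j hj => by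
      rw [← map_gen, ← map_mul, ← map_inv, ← map_mul]; exact mem_map_of_mem f (h.nm k hk j hj)⟩

theorem SD.comm (h : SD t) {a b : G} (ha : a ∈ gen t 4) (hb : b ∈ gen t 4) : a * b = b * a :=
  mem_centralizer_singleton_iff.1 ((gen_le (A := centralizer {b})).2 (fun k hk => mem_centralizer_singleton_iff.2
    (mem_centralizer_singleton_iff.1 ((gen_le (A := centralizer {t k})).2 (fun j hj =>
      mem_centralizer_singleton_iff.2 (h.jc j hj k hk)) hb)).symm) ha)

theorem SD.norm [Finite G] (h : SD t) : gen t 7 ≤ normalizer (gen t 4 : Set G) :=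
  gen_le.2 fun k hk => mem_norm_gen (h.nm k hk)

theorem SD.der [Finite G] (h : SD t) {a b : G} (ha : a ∈ gen t 6) (hb : b ∈ gen t 6) : ⁅a, b⁆ ∈ gen t 4 := by
  have := normal_subgroupOf_of_le_normalizer ((gen_mono t (by omega : 6 ≤ 7)).trans h.norm)
  have := Fact.mk Nat.prime_three
  have q := card_eq_card_quotient_mul_card_subgroup ((gen t 4).subgroupOf (gen t 6))
  rw [Nat.card_congr (subgroupOfEquivOfLe (gen_mono t (by omega))).toEquiv, h.c4, h.c6] at q
  have c := (IsPGroup.isMulCommutative_of_card_eq_prime_sq (p := 3)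
    (G := gen t 6 ⧸ (gen t 4).subgroupOf (gen t 6)) (by omega)).is_comm.comm (⟨a, ha⟩ : gen t 6) (⟨b, hb⟩ : gen t 6)
  rw [← commutatorElement_eq_one_iff_mul_comm, ← QuotientGroup.mk'_apply, ← QuotientGroup.mk'_apply,
    ← map_commutatorElement, QuotientGroup.mk'_apply, QuotientGroup.eq_one_iff] at c
  exact c

/-- the data in the large group -/
structure LD (F : ℕ → G) (K : ℕ → Subgroup G) (U : Type*) [Group U] : Prop extends SD F where
  syl : ¬ 2187 ∣ Nat.card G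
  hJ : ∀ s ∈ gen F 6, (∀ a ∈ gen F 6, ∀ b ∈ gen F 6, s * ⁅a, b⁆ = ⁅a, b⁆ * s) → s ∈ gen F 4
  hZ : ∀ s ∈ gen F 6, (∀ a ∈ gen F 6, s * a = a * s) → s = 1 ∨ F 0 ∈ zpowers s
  hN : Nat.card (normalizer (gen F 4 : Set G)) ≤ 58320
  a5 : F 6 ^ 5 = 1
  hC : ∀ c, c * F 0 = F 0 * c → c ∈ normalizer (gen F 4 : Set G) ∨ ∀ L : Subgroup G, gen F 7 ≤ L → c ∈ L → ∃ i < 3, K i ≤ L
  hK : ∀ i < 3, Nonempty (K i ≃* U) ∧ gen F 6 ≤ K i ∧ normalizer (gen F 4 : Set G) ≤ normalizer (K i : Set G)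
  hd : ∀ i < 3, ∀ j < i, K j ≠ K i

/-- the data in the small group -/
structure UD (t : ℕ → G) : Prop extends SD t where
  c7 : 29160 ≤ Nat.card (gen t 7)
  z1 : t 0 ≠ 1
  zc : ∀ k < 6, t k * t 0 = t 0 * t k
  y0 : t 7 * t 0 = t 0 * t 7
  yn : ∃ b ∈ gen t 4, ∃ c ∈ gen t 4, t 7 * b * (t 7)⁻¹ * c ≠ c * (t 7 * b * (t 7)⁻¹)

theorem UD.map {H : Type*} [Group H] (h : UD t) {f : G →* H} (hf : Function.Injective f) : UD fun k => f (t k) :=
  ⟨h.toSD.map hf, by rw [← map_gen, card_map_of_injective hf]; exact h.c7, fun e => h.z1 (hf (e.trans f.map_one.symm)),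
    fun k hk => by rw [← map_mul, h.zc k hk, map_mul], by rw [← map_mul, h.y0, map_mul],
    have ⟨b, hb, c, hc, e⟩ := h.yn
    ⟨_, map_gen f t 4 ▸ mem_map_of_mem f hb, _, map_gen f t 4 ▸ mem_map_of_mem f hc, fun q => e (hf (by simpa using q))⟩⟩

variable [Finite G] {K : ℕ → Subgroup G} {U : Type*} [Group U]

theorem LD.uniq (h : LD F K U) (hs : SD s) (e : gen s 6 = gen F 6) : gen s 4 = gen F 4 :=
  eq_of_le_of_card_ge (fun a ha => h.hJ a (e ▸ gen_mono s (by omega) ha) fun _ hb _ hc =>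
    hs.comm ha (hs.der (e ▸ hb) (e ▸ hc))) (by rw [hs.c4, h.c4])

/-- a subgroup of order `729` is a Sylow subgroup of every overgroup -/
theorem LD.sylow (h : LD F K U) {A L : Subgroup G} (hA : Nat.card A = 729) (hL : A ≤ L) :
    ∃ T : Sylow 3 L, (T : Subgroup L).map L.subtype = A := by
  have := Fact.mk Nat.prime_three
  have c : Nat.card (A.subgroupOf L) = 3 ^ 6 := (Nat.card_congr (subgroupOfEquivOfLe hL).toEquiv).trans hA
  refine ⟨(IsPGroup.of_card c).toSylow fun q => h.syl ((show 2187 ∣ Nat.card L from ?_).trans (card_subgroup_dvd_card L)),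
    (subgroupOf_map_subtype A L).trans (inf_eq_left.2 hL)⟩
  rw [← (A.subgroupOf L).card_mul_index, c]
  exact Nat.mul_dvd_mul_left (3 ^ 6) q

theorem LD.cls (h : LD F K U) {L : Subgroup G} (hL : gen F 6 ≤ L) (e : L ≃* U)
    (hU : ∀ T : Sylow 3 L, ∃ t : ℕ → L, UD t ∧ (T : Subgroup L) = gen t 6) : ∃ i < 3, L = K i := by
  obtain ⟨T, hT⟩ := h.sylow h.c6 hL
  obtain ⟨t, ht, e1⟩ := hU T
  have hs := ht.map L.subtype_injective
  rw [e1, map_gen] at hT
  have hJ := h.uniq hs.toSD hT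
  have n7 := hJ ▸ hs.norm
  have sL : gen (fun k => L.subtype (t k)) 7 ≤ L := gen_le.2 fun k _ => (t k).2
  have a6 : F 6 ∈ L := by
    set N := normalizer (gen F 4 : Set G)
    have a : F 6 ∈ N := h.norm (mem_gen F (by omega))
    have q := ((gen (fun k => L.subtype (t k)) 7).subgroupOf N).index_mul_card
    rw [Nat.card_congr (subgroupOfEquivOfLe n7).toEquiv] at q
    have q1 := hs.c7
    have q2 : Nat.card N ≤ 58320 := h.hN
    have q3 := ((gen (fun k => L.subtype (t k)) 7).subgroupOf N).index_ne_zero_of_finite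
    have q4 : ((gen (fun k => L.subtype (t k)) 7).subgroupOf N).index ≤ 2 := by nlinarith
    have q5 : F 6 = (F 6 ^ 3) ^ 2 := by rw [← pow_mul, pow_succ, h.a5, one_mul]
    refine sL ?_
    rcases (Nat.le_succ_iff.1 q4).imp_left (Nat.le_antisymm · (Nat.pos_of_ne_zero q3)) with r | r
    · exact (index_eq_one.1 r).ge (mem_top (⟨_, a⟩ : N))
    · exact q5 ▸ sq_mem_of_index_two r (⟨_, pow_mem a 3⟩ : N)
  have c0 : L.subtype (t 7) * F 0 = F 0 * L.subtype (t 7) := by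
    obtain ⟨m, hm⟩ := (h.hZ _ (hT ▸ mem_gen _ (by omega)) fun a ha => (mem_centralizer_singleton_iff.1
      ((gen_le (A := centralizer {_})).2 (fun k hk => mem_centralizer_singleton_iff.2 (hs.zc k hk)) (hT ▸ ha))).symm).resolve_left hs.z1
    exact hm ▸ (Commute.zpow_right hs.y0 m).eq
  obtain q | q := h.hC _ c0
  · obtain ⟨b, hb, c, hc, r⟩ := hs.yn
    exact (r (hs.comm (hJ ▸ (mem_normalizer_iff.1 q b).1 (hJ ▸ hb)) hc)).elim
  obtain ⟨i, hi, r⟩ := q L (gen_le.2 fun k hk => (Nat.lt_succ_iff_lt_or_eq.1 hk).elim (fun r => hL (mem_gen F r))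
    fun r => r ▸ a6) (t 7).2
  exact ⟨i, hi, (eq_of_le_of_card_ge r (Nat.card_congr (e.trans (h.hK i hi).1.some.symm).toEquiv).le).symm⟩

theorem map_cj (A : Subgroup G) (a b : G) : (A.map (MulAut.conj a).toMonoidHom).map (MulAut.conj b).toMonoidHom =
    A.map (MulAut.conj (b * a)).toMonoidHom := by
  rw [map_map]; congr 1; ext; simp [mul_assoc]

theorem map_norm {A : Subgroup G} {a : G} (h : a ∈ normalizer (A : Set G)) : A.map (MulAut.conj a).toMonoidHom = A :=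
  eq_of_le_of_card_ge (by rintro _ ⟨x, hx, rfl⟩; exact (mem_normalizer_iff.1 h x).1 hx)
    (card_map_of_injective (MulAut.conj a).injective).ge

theorem LD.conj (h : LD F K U) {A B L : Subgroup G} (hA : Nat.card A = 729) (hB : Nat.card B = 729) (h1 : A ≤ L)
    (h2 : B ≤ L) : ∃ l ∈ L, A.map (MulAut.conj l).toMonoidHom = B := by
  have := Fact.mk Nat.prime_three
  obtain ⟨S, rfl⟩ := h.sylow hA h1
  obtain ⟨T, rfl⟩ := h.sylow hB h2
  obtain ⟨l, rfl⟩ := MulAction.exists_smul_eq L S T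
  exact ⟨l, l.2, by rw [map_map]; exact (map_map _ L.subtype (MulAut.conj l).toMonoidHom).symm⟩

theorem LD.all (h : LD F K U) (h3 : 729 ∣ Nat.card U) (hU : ∀ L : Subgroup G, L ≃* U → ∀ T : Sylow 3 L,
    ∃ t : ℕ → L, UD t ∧ (T : Subgroup L) = gen t 6) {L : Subgroup G} (e : L ≃* U) :
    ∃ g, ∃ i < 3, L.map (MulAut.conj g).toMonoidHom = K i := by
  have := Fact.mk Nat.prime_three
  obtain ⟨A, hA⟩ := Sylow.exists_subgroup_card_pow_prime (G := L) 3 (n := 6) (Nat.card_congr e.toEquiv ▸ h3)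
  obtain ⟨g, -, hg⟩ := h.conj ((card_map_of_injective L.subtype_injective).trans hA) h.c6 le_top le_top
  have e' := ((MulAut.conj g).subgroupMap L).symm.trans e
  exact ⟨g, h.cls (hg ▸ map_mono (map_subtype_le A)) e' (hU _ e')⟩

theorem LD.nc (h : LD F K U) {i j : ℕ} (hi : i < 3) (hj : j < i) (g : G) :
    (K j).map (MulAut.conj g).toMonoidHom ≠ K i := fun e => by
  obtain ⟨l, hl, q⟩ := h.conj ((card_map_of_injective (MulAut.conj g).injective).trans h.c6) h.c6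
    (e ▸ map_mono (h.hK j (hj.trans hi)).2.1) (h.hK i hi).2.1
  rw [map_cj, map_gen] at q
  have r := h.uniq (h.toSD.map (MulAut.conj (l * g)).injective) q
  rw [← map_gen] at r
  have n : l * g ∈ normalizer (gen F 4 : Set G) := mem_normalizer_fintype fun x hx => r.le (mem_map_of_mem _ hx)
  refine h.hd i hi j hj ?_
  rw [← map_norm ((h.hK j (hj.trans hi)).2.2 n), ← map_cj, e, map_norm (le_normalizer hl)]

/-! ### the triple cover -/

section
variable {X : Type*} [Group X] [Finite X]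

theorem cm_conj (π : X →* G) (L : Subgroup G) (g : X) : (L.comap π).map (MulAut.conj g).toMonoidHom =
    (L.map (MulAut.conj (π g)).toMonoidHom).comap π := by
  ext x
  rw [mem_comap]
  refine (mem_map_equiv (f := MulAut.conj g)).trans (Iff.trans ?_ (mem_map_equiv (f := MulAut.conj (π g))).symm)
  simp

theorem up {L : Subgroup (X ⧸ center X)} (e : L ≃* U) (hU : center U = ⊥) :
    Nat.card (center (L.comap (QuotientGroup.mk' (center X)))) = Nat.card (center X) ∧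
      Nonempty (L.comap (QuotientGroup.mk' (center X)) ⧸ center (L.comap (QuotientGroup.mk' (center X))) ≃* U) := by
  set π := QuotientGroup.mk' (center X)
  let σ : L.comap π →* U := e.toMonoidHom.comp ((π.comp (L.comap π).subtype).codRestrict L fun x => x.2)
  have hs : Function.Surjective σ := e.surjective.comp fun ⟨y, hy⟩ =>
    have ⟨x, hx⟩ := QuotientGroup.mk'_surjective (center X) y
    ⟨⟨x, mem_comap.2 (hx ▸ hy)⟩, Subtype.ext hx⟩
  have hk : σ.ker = (center X).subgroupOf (L.comap π) := by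
    ext x
    exact (e.map_eq_one_iff.trans Subtype.ext_iff).trans (QuotientGroup.eq_one_iff _)
  have hc : center (L.comap π) = σ.ker := le_antisymm (fun x hx => mem_bot.1 (hU.le (mem_center_iff.2 fun y => by
      obtain ⟨y, rfl⟩ := hs y
      rw [← map_mul, mem_center_iff.1 hx y, map_mul])))
    (hk ▸ fun x hx => mem_center_iff.2 fun y => Subtype.ext (mem_center_iff.1 hx y))
  refine ⟨?_, ⟨(QuotientGroup.quotientMulEquivOfEq hc).trans (QuotientGroup.quotientKerEquivOfSurjective σ hs)⟩⟩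
  rw [hc, hk]
  exact Nat.card_congr (subgroupOfEquivOfLe fun x hx => mem_comap.2
    ((show π x = 1 from (QuotientGroup.eq_one_iff x).2 hx) ▸ L.one_mem)).toEquiv

theorem down (hz : Nat.card (center X) = 3) (h7 : ¬ 2187 ∣ Nat.card (X ⧸ center X)) (h6 : 729 ∣ Nat.card U)
    {A : Subgroup X} (hA : Nat.card (center A) = 3) (e : A ⧸ center A ≃* U) :
    (A.map (QuotientGroup.mk' (center X))).comap (QuotientGroup.mk' (center X)) = A ∧
      Nonempty (A.map (QuotientGroup.mk' (center X)) ≃* U) := by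
  set π := QuotientGroup.mk' (center X)
  have hk : (π.subgroupMap A).ker = (center X).subgroupOf A := by
    ext x
    exact Subtype.ext_iff.trans (QuotientGroup.eq_one_iff _)
  have q := card_eq_card_quotient_mul_card_subgroup (π.subgroupMap A).ker
  have f := QuotientGroup.quotientKerEquivOfSurjective _ (π.subgroupMap_surjective A)
  have hl : (π.subgroupMap A).ker ≤ center A := hk ▸ fun x hx => mem_center_iff.2 fun y => Subtype.ext (mem_center_iff.1 hx y)
  have c : Nat.card (π.subgroupMap A).ker = 3 :=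
    ((Nat.dvd_prime Nat.prime_three).1 (hA ▸ card_dvd_of_le hl)).resolve_left fun r => h7 (by
      refine Dvd.dvd.trans ?_ (card_subgroup_dvd_card (A.map π))
      rw [← Nat.card_congr f.toEquiv, ← mul_one (Nat.card _), ← r, ← q, card_eq_card_quotient_mul_card_subgroup (center A),
        hA, Nat.card_congr e.toEquiv]
      exact Nat.mul_dvd_mul_right h6 3)
  refine ⟨comap_map_eq_self ?_, ⟨f.symm.trans ((QuotientGroup.quotientMulEquivOfEq
    (eq_of_le_of_card_ge hl (by rw [hA, c]))).trans e)⟩⟩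
  rw [QuotientGroup.ker_mk', ← inf_eq_left, ← subgroupOf_map_subtype]
  exact eq_of_le_of_card_ge (subgroupOf_map_subtype _ A ▸ inf_le_left)
    (by rw [card_map_of_injective A.subtype_injective, ← hk, c, hz])

theorem LD.main {F : ℕ → X ⧸ center X} {K : ℕ → Subgroup (X ⧸ center X)} (h : LD F K U) (hz : Nat.card (center X) = 3)
    (h3 : 729 ∣ Nat.card U) (hc : center U = ⊥) (hU : ∀ L : Subgroup (X ⧸ center X), L ≃* U → ∀ T : Sylow 3 L,
      ∃ t : ℕ → L, UD t ∧ (T : Subgroup L) = gen t 6) :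
    ∃ K₁ K₂ K₃ : Subgroup X, (∀ A ∈ [K₁, K₂, K₃], Nat.card (center A) = 3 ∧ Nonempty (A ⧸ center A ≃* U)) ∧
      (¬ ∃ g : X, K₁.map (MulAut.conj g).toMonoidHom = K₂) ∧ (¬ ∃ g : X, K₁.map (MulAut.conj g).toMonoidHom = K₃) ∧
      (¬ ∃ g : X, K₂.map (MulAut.conj g).toMonoidHom = K₃) ∧ ∀ A : Subgroup X, Nat.card (center A) = 3 →
        Nonempty (A ⧸ center A ≃* U) → ∃ g : X, A.map (MulAut.conj g).toMonoidHom = K₁ ∨
          A.map (MulAut.conj g).toMonoidHom = K₂ ∨ A.map (MulAut.conj g).toMonoidHom = K₃ := by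
  have hs := QuotientGroup.mk'_surjective (center X)
  have u := fun i hi => hz ▸ up (h.hK i hi).1.some hc
  have n : ∀ i < 3, ∀ j < i, ¬ ∃ g : X, ((K j).comap (QuotientGroup.mk' _)).map (MulAut.conj g).toMonoidHom =
      (K i).comap (QuotientGroup.mk' _) := fun i hi j hj ⟨g, q⟩ =>
    h.nc hi hj _ (comap_injective hs ((cm_conj _ _ g).symm.trans q))
  refine ⟨_, _, _, by simpa using ⟨u 0 (by omega), u 1 (by omega), u 2 (by omega)⟩, n 1 (by omega) 0 (by omega),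
    n 2 (by omega) 0 (by omega), n 2 (by omega) 1 (by omega), fun A hA ⟨e⟩ => ?_⟩
  obtain ⟨q, ⟨f⟩⟩ := down hz h.syl h3 hA e
  obtain ⟨g, i, hi, r⟩ := h.all h3 hU f
  obtain ⟨g, rfl⟩ := hs g
  refine ⟨g, ?_⟩
  rw [← q, cm_conj, r]
  interval_cases i <;> simp

end

/-! ### certificates -/

variable {Ω : Type*} [MulAction G Ω] {pt : ℕ → Ω} {P : ℕ → ℕ → ℕ} {N n : ℕ} {B : List ℕ}

theorem eqS (S : Sm F pt P N n B) {U V : List ℕ} (h : eqL P n B U V = 0) : evA F U = evA F V :=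
  eqL_sound S.act S.ltB (S.base.mono le_top) h

/-- positive if the words do not commute -/
noncomputable def ncm (P : ℕ → ℕ → ℕ) (B U V : List ℕ) : ℕ := sumL (fun β => Nat.xor (apW P (U ++ V) β) (apW P (V ++ U) β)) B

theorem ncm_zero (S : Sm F pt P N n B) {U V : List ℕ} (hU : ∀ k ∈ U, k < n) (hV : ∀ k ∈ V, k < n)
    (h : evA F U * evA F V = evA F V * evA F U) : ncm P B U V = 0 := sumL_of fun β hβ => by
  obtain ⟨a1, a2⟩ := S.act.apW (List.forall_mem_append.2 ⟨hU, hV⟩) (ltAll_zero S.ltB β hβ)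
  obtain ⟨a3, a4⟩ := S.act.apW (List.forall_mem_append.2 ⟨hV, hU⟩) (ltAll_zero S.ltB β hβ)
  rw [S.inj _ a1 _ a3 (by rw [← a2, ← a4, evA_append, evA_append, h])]
  exact Nat.xor_self _

/-- the centraliser of the words `Y` in the group of order `3^6` -/
theorem cenS (S : Sm F pt P N n B) (h : PC0 F 6 3) {Y : List (List ℕ)} {f : List ℕ → ℕ}
    (hc : allL (fun W => Nat.add (ltAll n W) (Nat.mul (f W) (Nat.sub 1 (sumL (ncm P B W) Y)))) (allW 3 6) = true ∧
      allL (ltAll n) Y = true) {a : G} (ha : a ∈ gen F 6) (hY : ∀ y ∈ Y, a * evA F y = evA F y * a) :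
    ∃ W, f W = 0 ∧ a = evA F W := by
  obtain ⟨W, hW, rfl⟩ := exists_allW h le_rfl a ha
  obtain ⟨q1, q2⟩ := Nat.add_eq_zero_iff.1 (allL_sound hc.1 W hW)
  rw [sumL_of fun y hy => ncm_zero S (ltAll_zero q1) (ltAll_zero (allL_sound hc.2 y hy)) (hY y hy)] at q2
  exact ⟨W, by simpa using q2, rfl⟩

theorem hJ_of (S : Sm F pt P N n B) (h : PC0 F 6 3) {D : List (List ℕ × List ℕ × List ℕ)}
    (hc : allL (fun W => Nat.add (ltAll n W) (Nat.mul (ltAll 4 W) (Nat.sub 1 (sumL (ncm P B W) (D.map (·.2.2))))))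
      (allW 3 6) = true ∧ allL (ltAll n) (D.map (·.2.2)) = true)
    (hD : ∀ d ∈ D, eqL P n B (d.2.1 ++ d.1) (d.1 ++ d.2.1 ++ d.2.2) = 0 ∧ ltAll 6 d.1 = 0 ∧ ltAll 6 d.2.1 = 0) :
    ∀ s ∈ gen F 6, (∀ a ∈ gen F 6, ∀ b ∈ gen F 6, s * ⁅a, b⁆ = ⁅a, b⁆ * s) → s ∈ gen F 4 := fun s hs H => by
  obtain ⟨W, q, rfl⟩ := cenS S h hc hs (List.forall_mem_map.2 fun d hd => by
    have := eqS S (hD d hd).1
    simp only [evA_append] at this
    rw [show evA F d.2.2 = ⁅evA F d.1, evA F d.2.1⁆ by rw [commutatorElement_def, this]; group]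
    exact H _ (evA_mem_gen F (ltAll_zero (hD d hd).2.1)) _ (evA_mem_gen F (ltAll_zero (hD d hd).2.2)))
  exact evA_mem_gen F (ltAll_zero q)

theorem hZ_of (S : Sm F pt P N n B) (h : PC0 F 6 3)
    (hc : allL (fun W => Nat.add (ltAll n W) (Nat.mul (Nat.mul (Nat.mul (neL W []) (neL W [0])) (neL W [0, 0]))
      (Nat.sub 1 (sumL (ncm P B W) [[3], [4], [5]])))) (allW 3 6) = true ∧ allL (ltAll n) [[3], [4], [5]] = true) :
    ∀ s ∈ gen F 6, (∀ a ∈ gen F 6, s * a = a * s) → s = 1 ∨ F 0 ∈ zpowers s := fun s hs H => by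
  obtain ⟨W, q, rfl⟩ := cenS S h hc hs fun y hy => H _ (evA_mem_gen F (by revert y; decide))
  have c : F 0 ^ 3 = 1 := mem_bot.1 (gen_zero F ▸ h.pow 0 (by omega))
  rcases Nat.mul_eq_zero.1 q with q | q
  · rcases Nat.mul_eq_zero.1 q with q | q <;> rw [neL_zero q]
    exacts [.inl rfl, .inr ⟨1, by simp⟩]
  · rw [neL_zero q]
    exact .inr ⟨2, by
      simp only [evA_cons, evA_nil, one_mul, zpow_two]
      rw [← pow_two (F 0), ← pow_add, pow_succ, c, one_mul]⟩

theorem dvd_card {A : Subgroup G} {a : G} {p : ℕ} (hp : p.Prime) (ha : a ∈ A) (h1 : a ^ p = 1) (h2 : a ^ 1 ≠ 1) :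
    p ∣ Nat.card A :=
  have := Fact.mk hp
  orderOf_eq_prime h1 (by simpa using h2) ▸ A.orderOf_dvd_natCard ha

theorem hN_of (S : Sm F pt P N n B) (h : PC0 F 6 3) {U : List ℕ} {L V Z : List (List ℕ)} {D : List (List ℕ × List ℕ × List ℕ)}
    (cV : Nat.card (centralizer {wds F V 0}) = 1944) (cZ : Nat.card (centralizer {wds F Z 0}) = 46656) {x : G}
    (x1 : x * evA F U = evA F U * x) (x2 : x ^ 5 = 1) (x3 : x ^ 1 ≠ 1) (cG : Nat.card G = 9196830720)
    (h1 : ltAll 4 (nth [] V 0) = 0 ∧ L.length = 30 ∧ ∀ W ∈ allW 3 4, W ∈ L ∨ ∃ d ∈ D, d.1 = W ∧ d.2.1 ∈ [nth [] Z 0, U, []])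
    (h2 : allL (fun d => eqL P n B (d.2.1 ++ d.2.2) (d.2.2 ++ d.1)) D = true) :
    Nat.card (normalizer (gen F 4 : Set G)) ≤ 58320 := by
  classical
  have hR : ∀ ρ ∈ [nth [] Z 0, U, []], Nat.card (centralizer {evA F ρ}) ≠ 1944 := by
    simp only [List.forall_mem_cons]
    exact ⟨fun q => absurd (cZ.symm.trans q) (by omega), fun q => absurd (q ▸ dvd_card (by norm_num)
      (mem_centralizer_singleton_iff.2 x1) x2 x3) (by omega), by
        rw [show centralizer {evA F []} = ⊤ from eq_top_iff.2 fun _ _ => mem_centralizer_singleton_iff.2 (Commute.one_right _),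
          card_top, cG]; omega, by simp⟩
  obtain ⟨k, d, q1, q2, q3⟩ := conj_orbit (normalizer (gen F 4 : Set G)) (wds F V 0) (S := ↑(L.map (evA F)).toFinset) fun u hu => by
    obtain ⟨W, hW, e⟩ := exists_allW h (by omega) _ ((mem_normalizer_iff.1 hu _).1 (evA_mem_gen F (ltAll_zero h1.1)))
    obtain q | ⟨d, hd, rfl, q⟩ := h1.2.2 W hW
    · exact List.mem_toFinset.2 (e ▸ List.mem_map_of_mem q)
    have := eqS S (allL_sound h2 d hd)
    rw [evA_append, evA_append] at this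
    exact (hR _ q (((card_cent_conj (isConj_iff.2 ⟨_, mul_inv_eq_of_eq_mul this⟩)).trans
      (e ▸ card_cent_conj (isConj_iff.2 ⟨u, rfl⟩)).symm).trans cV)).elim
  rw [Set.ncard_coe_finset] at q3
  exact q1 ▸ Nat.mul_le_mul ((q3.trans (List.toFinset_card_le _)).trans_eq ((List.length_map _).trans h1.2.1))
    (Nat.le_of_dvd (by omega) (cV ▸ q2))

/-- seven letters and a word -/
def sel (x : List ℕ) : List (List ℕ) := [[0], [1], [2], [3], [4], [5], [6], x]

theorem sel_le {x : List ℕ} {L : Subgroup G} : gen (wds F (sel x)) 8 ≤ L ↔ gen F 7 ≤ L ∧ evA F x ∈ L := by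
  have q : ∀ k < 7, wds F (sel x) k = F k := fun k hk => by interval_cases k <;> exact one_mul _
  simp only [gen_le]
  exact ⟨fun h => ⟨fun k hk => q k hk ▸ h k (by omega), h 7 (by omega)⟩, fun h k hk =>
    (Nat.lt_succ_iff_lt_or_eq.1 hk).elim (fun r => (q k r).symm ▸ h.1 k r) fun r => r ▸ h.2⟩

noncomputable def cosEnt (P : ℕ → ℕ → ℕ) (n r : ℕ) (B : List ℕ) (C R : List (List ℕ)) (T : List (List (ℕ × List ℕ))) (k j : ℕ) : ℕ :=
  (fun d : ℕ × List ℕ => Nat.add (Nat.add (Nat.sub (Nat.succ d.1) r) (ltAll 6 d.2))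
    (eqL P n B (nth [] R j ++ nth [] C k) (d.2 ++ nth [] R d.1))) (nth (0, []) (nth [] T k) j)

theorem hC_of (S : Sm F pt P N n B) (hs : SD F) (h10 : F 10 ∈ normalizer (gen F 4 : Set G)) {C R Z : List (List ℕ)} {m r : ℕ}
    (hc : centralizer {wds F Z 0} ≤ gen (wds F C) m) {T : List (List (ℕ × List ℕ))} {X : List (List ℕ × List ℕ × List ℕ)}
    (h1 : ∀ k < m, ∀ j < r, cosEnt P n r B C R T k j = 0)
    (h2 : allL (fun d => Nat.add (ltAll 8 d.2.1) (eqL P n B (flat (sel d.1) d.2.1) d.2.2)) X = true)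
    (h3 : (0 < r ∧ nth [] Z 0 = [0]) ∧ nth [] R 0 = [] ∧ ∀ j < r, ∃ d ∈ X, d.1 = [10] ∧ d.2.2 = nth [] R j ∨ d.1 = nth [] R j ∧ ∃ i < 3, d.2.2 = [7 + i]) :
    ∀ c, c * F 0 = F 0 * c → c ∈ normalizer (gen F 4 : Set G) ∨
      ∀ L : Subgroup G, gen F 7 ≤ L → c ∈ L → ∃ i < 3, gen (wds F (sel [7 + i])) 8 ≤ L := fun c H => by
  obtain ⟨j, hj, e⟩ := orbit_subset_of_closed (φ := fun j => ((wds F R j : G) : G ⧸ gen F 6)) (fun k hk j hj => by
    obtain ⟨q1, q3⟩ := Nat.add_eq_zero_iff.1 (h1 k hk j hj)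
    obtain ⟨q1, q2⟩ := Nat.add_eq_zero_iff.1 q1
    have := eqS S q3
    rw [evA_append, evA_append] at this
    exact ⟨_, Nat.sub_eq_zero_iff_le.1 q1, (QuotientGroup.eq.2 (inv_mul_eq_of_eq_mul this.symm.symm ▸
      evA_mem_gen F (ltAll_zero q2))).symm⟩) (hc (mem_centralizer_singleton_iff.2 (by simpa [wds, h3.1.2] using H))) 0 h3.1.1
  have e1 : (wds F R j)⁻¹ * c ∈ gen F 6 := by simpa [wds, h3.2.1] using QuotientGroup.eq.1 e.symm
  have l : gen F 6 ≤ gen F 7 := gen_mono F (by omega)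
  obtain ⟨d, hd, q⟩ := h3.2.2 j hj
  obtain ⟨q1, q2⟩ := Nat.add_eq_zero_iff.1 (allL_sound h2 d hd)
  have m1 : evA F d.2.2 ∈ gen (wds F (sel d.1)) 8 := eqS S q2 ▸ evA_flat F _ _ ▸ evA_mem_gen _ (ltAll_zero q1)
  obtain ⟨a, b⟩ | ⟨a, i, hi, b⟩ := q <;> rw [a, b] at m1
  · exact .inl (by simpa [wds] using mul_mem (sel_le.2 ⟨hs.norm, by simpa using h10⟩ m1) (hs.norm (l e1)))
  · exact .inr fun L h7 hL => ⟨i, hi, sel_le.2 ⟨h7, sel_le.2 ⟨h7, by simpa [wds] using mul_mem hL (inv_mem (h7 (l e1)))⟩ m1⟩⟩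

theorem sd_of (S : Sm F pt P N n B) (h : PC F 6 3) (h6 : F 6 ∈ normalizer (gen F 4 : Set G))
    (hc : ∀ a < 4, ∀ b < 4, eqL P n B [b, a] [a, b] = 0) : SD F :=
  ⟨h.card, le_antisymm (h.card_le' (by omega)) (by have := h.card ▸ h.card_le (i := 4) (j := 2) le_rfl; omega),
    fun a ha b hb => by simpa using eqS S (hc a ha b hb), fun k hk j hj => (Nat.lt_succ_iff_lt_or_eq.1 hk).elim
      (fun r => h.norm (by omega) (mem_gen F r) (mem_gen F hj)) fun r => r ▸ (mem_normalizer_iff.1 h6 _).1 (mem_gen F hj)⟩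

theorem ud_of (hs : SD F) (h : PC F 6 3) (h7 : 29160 ≤ Nat.card (gen F 7)) {a b : ℕ} (h0 : evA F [0, 7] = evA F [7, 0])
    (h1 : F 7 ^ 4 = 1) (h2 : evA F [b, 7, 7, 7, a, 7] ≠ evA F [7, 7, 7, a, 7, b]) (e : a < 4 ∧ b < 4) : UD F :=
  ⟨hs, h7, fun q => h.strict (by omega) h.card.ge (j := 0) (by omega) (q ▸ one_mem _), fun k hk => by
    simpa [gen_zero, mul_inv_eq_iff_eq_mul] using h.cen (j := 0) (by omega) (mem_gen F hk), by simpa using h0,
    _, mem_gen F e.1, _, mem_gen F e.2, by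
      rw [← eq_inv_of_mul_eq_one_left ((pow_succ _ 3).symm.trans h1)]
      simpa [pow_succ, mul_assoc] using h2⟩

theorem hd_of {i j : ℕ} {W : List ℕ} (hc : Nat.card (gen (wds F (sel [i])) 8) = 3265920) (h1 : evA F W ^ 11 = 1)
    (h2 : evA F W ^ 1 ≠ 1) (e : ∀ k ∈ W, k < 7 ∨ k = i ∨ k = j) : gen (wds F (sel [j])) 8 ≠ gen (wds F (sel [i])) 8 := fun q => by
  have := hc ▸ dvd_card (by norm_num) (evA_mem F fun k hk => by
    obtain r | rfl | rfl := e k hk
    exacts [(sel_le.1 le_rfl).1 (mem_gen F r), by simpa using (sel_le.1 (le_refl (gen (wds F (sel [k])) 8))).2,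
      by simpa using (sel_le.1 q.le).2]) h1 h2
  omega

theorem hK_of (hN : Nat.card (normalizer (gen F 4 : Set G)) ≤ 58320) (hs : SD F) (h10 : F 10 ∈ normalizer (gen F 4 : Set G))
    (hl : 58320 ≤ Nat.card (gen (wds F (sel [10])) 8)) {x : List ℕ} (h : F 10 ∈ normalizer (gen (wds F (sel x)) 8 : Set G)) :
    gen F 6 ≤ gen (wds F (sel x)) 8 ∧ normalizer (gen F 4 : Set G) ≤ normalizer (gen (wds F (sel x)) 8 : Set G) :=
  ⟨(gen_mono F (by omega)).trans (sel_le.1 le_rfl).1, (eq_of_le_of_card_ge (sel_le.2 ⟨hs.norm, by simpa using h10⟩)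
    (hN.trans hl)).ge.trans (sel_le.2 ⟨(sel_le.1 le_rfl).1.trans le_normalizer, by simpa using h⟩)⟩

end H16.SU6
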